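/-
Even dimension: classes of vectors under the relation "the product of the two reflections lies in `M`", the
abstract closure data, corrections of elements of the decomposition stabiliser into `Ω`, and the step from "all
vectors of one norm" to `Ω ≤ M`.
-/
import Mathlib
import Cfsg.Agent.Lib.Classical.Decomp.OddMain
import Cfsg.Agent.Lib.Classical.Orth.DicksonRank
import Cfsg.Agent.Lib.Classical.Orth.ReflClass

set_option autoImplicit false
set_option linter.unusedSectionVars false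
set_option linter.unusedSimpArgs false
set_option linter.unusedVariables false

namespace Cfsg.Agent.Lib.Classical.Decomp.Ev

open Matrix QuadraticMap Module Cfsg.Geo
open Cfsg.Agent.Lib.Classical.Decomp
open Cfsg.Agent.Lib.Classical.Orth.Basic
open Cfsg.Agent.Lib.Classical.Orth.Spinor
open Cfsg.Agent.Lib.Classical.Orth.CartanDieudonne
open Cfsg.Agent.Lib.Classical.Orth.ReflClass
open Cfsg.Agent.Lib.Classical.Orth.Dickson
open Cfsg.Agent.Lib.Classical.Orth.DicksonRank

variable {ι : Type} [Fintype ι] [DecidableEq ι] {F : Type*} [Field F] [Fintype F]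
variable {Q : QuadraticForm F (ι → F)}

set_option quotPrecheck false in
local notation "𝔣" => polar (⇑Q)
set_option quotPrecheck false in
local notation "𝕀" => ↥(Cfsg.isometryGroup F (⇑Q))

variable {t k : ℕ} {D : Fin t → Submodule F (ι → F)} {π : Fin t → (ι → F) →ₗ[F] (ι → F)}

omit [Fintype F] in
theorem charP_two_of {F : Type*} [Field F] (h : (2 : F) = 0) : CharP F 2 :=
  CharTwo.of_one_ne_zero_of_two_eq_zero one_ne_zero h

theorem refl_stab (dec : Dec Q k D π) {i : Fin t} {w : ι → F} (hw : w ∈ D i) (hw0 : Q w ≠ 0) :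
    ((reflectionIso Q w hw0 : 𝕀) : GL ι F) ∈ decompositionStabilizer D := by
  apply mem_stab_of_perm dec _ 1
  intro j x hx
  change act (reflectionIso Q w hw0) x ∈ D j
  rw [reflectionIso_act]
  by_cases hj : j = i
  · subst hj
    exact (D j).sub_mem hx ((D j).smul_mem _ hw)
  · have : 𝔣 w x = 0 := dec.orth i j (Ne.symm hj) w hw x hx
    rw [this]
    simpa using hx

/-- Products of two reflections in vectors of the same norm lie in `Ω`. -/
theorem pair_omega (hQ : (polarBilin Q).Nondegenerate) (hn : Fintype.card ι ≠ 4) {u v : ι → F} (hu : Q u ≠ 0)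
    (hv : Q v ≠ 0) (huv : Q u = Q v) : reflectionIso Q u hu * reflectionIso Q v hv ∈ Cfsg.Omega F (⇑Q) := by
  by_cases h2 : (2 : F) = 0
  · haveI := charP_two_of h2
    rw [mem_omega_iff_char_two hQ (Or.inr hn), map_mul, dicksonHom_reflection, dicksonHom_reflection]
    decide
  · exact reflection_mul_mem_omega Q h2 v u hv hu (by rw [huv, div_self hv]; exact IsSquare.one)

/-- The class of `v₀`. -/
def Cl (Q : QuadraticForm F (ι → F)) (M : Subgroup (GL ι F)) (v₀ : ι → F) (h0 : Q v₀ ≠ 0) : Set (ι → F) :=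
  {x | Q x = Q v₀ ∧ ∃ hx : Q x ≠ 0, ((reflectionIso Q x hx * reflectionIso Q v₀ h0 :
    ↥(Cfsg.isometryGroup F (⇑Q))) : GL ι F) ∈ M}

/-- The abstract data for the closure arguments. -/
structure Sys (Q : QuadraticForm F (ι → F)) {t : ℕ} (k : ℕ) (D : Fin t → Submodule F (ι → F))
    (π : Fin t → (ι → F) →ₗ[F] (ι → F)) (R : Set (ι → F)) (c : F) : Prop where
  dec : Dec Q k D π
  hQ : (polarBilin Q).Nondegenerate
  hc : c ≠ 0
  norm : ∀ x ∈ R, Q x = c
  refl : ∀ a ∈ R, ∀ x ∈ R, ∀ ha : Q a ≠ 0, act (reflectionIso Q a ha) x ∈ R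
  mem : ∀ i x, x ∈ D i → Q x = c → x ∈ R
  hinv : ∀ g : ↥(Cfsg.isometryGroup F (⇑Q)), g ∈ Cfsg.Omega F (⇑Q) → (g : GL ι F) ∈ decompositionStabilizer D → ∀ x ∈ R, act g x ∈ R

theorem sys_Cl (dec : Dec Q k D π) (hQ : (polarBilin Q).Nondegenerate) (hn : Fintype.card ι ≠ 4)
    {M : Subgroup (GL ι F)} {i₀ : Fin t} {v₀ : ι → F} (hv₀ : v₀ ∈ D i₀) (h0 : Q v₀ ≠ 0)
    (hH : decompositionStabilizer D ⊓ omegaGL (⇑Q) ≤ M) : Sys Q k D π (Cl Q M v₀ h0) (Q v₀) := by
  have mem_M : ∀ g : 𝕀, g ∈ Cfsg.Omega F (⇑Q) → (g : GL ι F) ∈ decompositionStabilizer D → (g : GL ι F) ∈ M :=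
    fun g h1 h3 => hH ⟨h3, ⟨g, h1, rfl⟩⟩
  set r₀ := reflectionIso Q v₀ h0 with hr₀
  have hr₀st : ((r₀ : 𝕀) : GL ι F) ∈ decompositionStabilizer D := refl_stab dec hv₀ h0
  have hr₀2 : r₀ * r₀ = 1 := reflectionIso_mul_self Q v₀ h0
  refine ⟨dec, hQ, h0, fun x hx => hx.1, ?_, ?_, ?_⟩
  · rintro a ⟨ha1, ha2, ha3⟩ x ⟨hx1, hx2, hx3⟩ ha
    refine ⟨by rw [Q_act]; exact hx1, by rw [Q_act]; exact hx2, ?_⟩
    rw [← conj_reflectionIso (reflectionIso Q a ha) x hx2, reflectionIso_inv]
    set r_a := reflectionIso Q a ha2 with hra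
    set r_x := reflectionIso Q x hx2 with hrx
    have hxinv : ((r₀ * r_x : 𝕀) : GL ι F) ∈ M := by
      have h9 := M.inv_mem hx3
      have e9 : (((r_x * r₀ : 𝕀) : GL ι F))⁻¹ = ((r₀ * r_x : 𝕀) : GL ι F) := by
        apply inv_eq_of_mul_eq_one_left
        have : (r₀ * r_x) * (r_x * r₀) = 1 := by
          rw [mul_assoc, ← mul_assoc r_x, reflectionIso_mul_self, one_mul, hr₀2]
        exact congrArg (Subtype.val) this
      rwa [e9] at h9
    have e : reflectionIso Q a ha * r_x * reflectionIso Q a ha * r₀ = (r_a * r₀) * (r₀ * r_x) * (r_a * r₀) := by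
      have : reflectionIso Q a ha = r_a := rfl
      rw [this, mul_assoc r_a r₀, ← mul_assoc r₀ r₀, hr₀2, one_mul]
      simp only [mul_assoc]
    rw [e]
    exact M.mul_mem (M.mul_mem ha3 hxinv) ha3
  · intro i x hx hQx
    have hx0 : Q x ≠ 0 := by rw [hQx]; exact h0
    refine ⟨hQx, hx0, mem_M _ (pair_omega hQ hn hx0 h0 hQx) ?_⟩
    exact (decompositionStabilizer D).mul_mem (refl_stab dec hx hx0) hr₀st
  · rintro g hg1 hg2 x ⟨hx1, hx2, hx3⟩
    refine ⟨by rw [Q_act]; exact hx1, by rw [Q_act]; exact hx2, ?_⟩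
    rw [← conj_reflectionIso g x hx2]
    set r_x := reflectionIso Q x hx2 with hrx
    have e : g * r_x * g⁻¹ * r₀ = g * (r_x * r₀) * (r₀ * g⁻¹ * r₀) := by
      simp only [mul_assoc]
      rw [← mul_assoc r₀ r₀, hr₀2, one_mul]
    rw [e]
    have hΩ : r₀ * g⁻¹ * r₀ ∈ Cfsg.Omega F (⇑Q) := by
      have hnorm : (Cfsg.Omega F (⇑Q)).Normal := by
        unfold Cfsg.Omega
        infer_instance
      have := hnorm.conj_mem g⁻¹ ((Cfsg.Omega F (⇑Q)).inv_mem hg1) r₀
      have hi : r₀⁻¹ = r₀ := reflectionIso_inv Q v₀ h0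
      rwa [hi] at this
    have hst : ((r₀ * g⁻¹ * r₀ : 𝕀) : GL ι F) ∈ decompositionStabilizer D :=
      (decompositionStabilizer D).mul_mem ((decompositionStabilizer D).mul_mem hr₀st
        ((decompositionStabilizer D).inv_mem hg2)) hr₀st
    exact M.mul_mem (M.mul_mem (mem_M g hg1 hg2) hx3) (mem_M _ hΩ hst)

/-- Correction of isometries into `Ω` without moving the vector `b`. -/
def HasCorr (Q : QuadraticForm F (ι → F)) (D : Fin t → Submodule F (ι → F)) (b : ι → F) : Prop :=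
  ∀ h : ↥(Cfsg.isometryGroup F (⇑Q)), ∃ r : ↥(Cfsg.isometryGroup F (⇑Q)), (r : GL ι F) ∈ decompositionStabilizer D ∧ act r b = b ∧ r * h ∈ Cfsg.Omega F (⇑Q)

theorem corr_of_zero (dec : Dec Q k D π) (hQ : (polarBilin Q).Nondegenerate) (h2 : (2 : F) ≠ 0) (hk : 2 ≤ k)
    {b : ι → F} {j : Fin t} (hj : π j b = 0) : HasCorr Q D b := by
  intro h
  have hd : 2 ≤ finrank F (D j) := by rw [dec.dim]; exact hk
  obtain ⟨w₁, hw₁, hQw₁⟩ := universal h2 (dec.nd j) hd 1
  obtain ⟨w₂, hw₂, hQw₂⟩ := universal h2 (dec.nd j) hd (nonsq h2)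
  have h01 : Q w₁ ≠ 0 := by rw [hQw₁]; exact one_ne_zero
  have h02 : Q w₂ ≠ 0 := by rw [hQw₂]; exact nonsq_ne_zero h2
  have hfix : ∀ w ∈ D j, ∀ (h0 : Q w ≠ 0), act (reflectionIso Q w h0) b = b := by
    intro w hwE h0
    rw [reflectionIso_act, dec.polar_comp hwE, hj, polar_zero_right]
    simp
  have hs1 : plusSign Q (reflectionIso Q w₁ h01) = -1 ∧ spinorSign Q h2 (reflectionIso Q w₁ h01) = 1 := by
    rw [plusSign_reflection Q h2, spinorSign_reflection Q h2, hQw₁]
    simp
  have hs2 : plusSign Q (reflectionIso Q w₂ h02) = 1 ∧ spinorSign Q h2 (reflectionIso Q w₂ h02) = -1 := by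
    rw [plusSign_reflection Q h2, spinorSign_reflection Q h2, hQw₂, if_neg (nonsq_spec h2), if_neg (nonsq_spec h2)]
    simp
  have hst1 := refl_stab dec hw₁ h01
  have hst2 := refl_stab dec hw₂ h02
  rcases Int.units_eq_one_or (plusSign Q h) with hp | hp <;>
    rcases Int.units_eq_one_or (spinorSign Q h2 h) with hs | hs
  · refine ⟨1, (decompositionStabilizer D).one_mem, act_one b, ?_⟩
    rw [one_mul]
    exact (mem_omega_iff Q hQ h2 h).2 ⟨hp, hs⟩
  · refine ⟨reflectionIso Q w₂ h02, hst2, hfix w₂ hw₂ h02, (mem_omega_iff Q hQ h2 _).2 ?_⟩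
    rw [map_mul, map_mul, hp, hs, hs2.1, hs2.2]
    simp
  · refine ⟨reflectionIso Q w₁ h01, hst1, hfix w₁ hw₁ h01, (mem_omega_iff Q hQ h2 _).2 ?_⟩
    rw [map_mul, map_mul, hp, hs, hs1.1, hs1.2]
    simp
  · refine ⟨reflectionIso Q w₁ h01 * reflectionIso Q w₂ h02, (decompositionStabilizer D).mul_mem hst1 hst2, ?_,
      (mem_omega_iff Q hQ h2 _).2 ?_⟩
    · rw [act_mul, hfix w₂ hw₂ h02, hfix w₁ hw₁ h01]
    · rw [map_mul, map_mul, map_mul, map_mul, hp, hs, hs1.1, hs1.2, hs2.1, hs2.2]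
      simp

theorem corr_of_nonsing_comp (dec : Dec Q k D π) (hQ : (polarBilin Q).Nondegenerate) (h2 : (2 : F) = 0)
    (hn : Fintype.card ι ≠ 4) {b : ι → F} (hb : Q b ≠ 0) : HasCorr Q D b := by
  classical
  haveI := charP_two_of h2
  intro h
  obtain ⟨i, hi⟩ : ∃ i, Q (π i b) ≠ 0 := by
    by_contra hcon
    push Not at hcon
    apply hb
    rw [dec.Q_sum b]
    exact Finset.sum_eq_zero (fun i _ => hcon i)
  have hw := dec.mem i b
  have hfix : act (reflectionIso Q (π i b) hi) b = b := by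
    rw [reflectionIso_act, dec.polar_comp hw, polar_self_eq, h2, zero_mul, mul_zero]
    simp
  rcases Int.units_eq_one_or (dicksonHom hQ (Or.inr hn) h) with hd | hd
  · refine ⟨1, (decompositionStabilizer D).one_mem, act_one b, ?_⟩
    rw [one_mul]
    exact (mem_omega_iff_char_two hQ (Or.inr hn) h).2 hd
  · refine ⟨reflectionIso Q (π i b) hi, refl_stab dec hw hi, hfix, (mem_omega_iff_char_two hQ (Or.inr hn) _).2 ?_⟩
    rw [map_mul, dicksonHom_reflection, hd]
    decide

namespace Sys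

variable {R : Set (ι → F)} {c : F}
variable (S : Sys Q k D π R c)
include S

theorem move (h : 𝕀) (hh : (h : GL ι F) ∈ decompositionStabilizer D) {a : ι → F} (ha : a ∈ R)
    (hb : HasCorr Q D (act h a)) : act h a ∈ R := by
  obtain ⟨r, hr1, hr2, hr3⟩ := hb h
  have := S.hinv (r * h) hr3 ((decompositionStabilizer D).mul_mem hr1 hh) a ha
  rwa [act_mul, hr2] at this

theorem ne_zero_of_mem {a : ι → F} (ha : a ∈ R) : Q a ≠ 0 := by
  rw [S.norm a ha]
  exact S.hc

end Sys

/-- All vectors of the norm of `v₀` in the class of `v₀` give `Ω ≤ M`. -/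
theorem omega_le_of_all (hQ : (polarBilin Q).Nondegenerate) (hn : 5 ≤ Fintype.card ι) {M : Subgroup (GL ι F)}
    {v₀ : ι → F} (h0 : Q v₀ ≠ 0) (hMΩ : M ≤ omegaGL (⇑Q)) (hall : ∀ x, Q x = Q v₀ → x ∈ Cl Q M v₀ h0) :
    omegaGL (⇑Q) ≤ M := by
  classical
  set r₀ := reflectionIso Q v₀ h0 with hr₀
  have hr₀2 : r₀ * r₀ = 1 := reflectionIso_mul_self Q v₀ h0
  have hinvM : ∀ (y : 𝕀), y * y = 1 → ((y * r₀ : 𝕀) : GL ι F) ∈ M → ((r₀ * y : 𝕀) : GL ι F) ∈ M := by
    intro y hy2 hm
    have h9 := M.inv_mem hm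
    have e9 : (((y * r₀ : 𝕀) : GL ι F))⁻¹ = ((r₀ * y : 𝕀) : GL ι F) := by
      apply inv_eq_of_mul_eq_one_left
      have : (r₀ * y) * (y * r₀) = 1 := by
        rw [mul_assoc, ← mul_assoc y, hy2, one_mul, hr₀2]
      exact congrArg (Subtype.val) this
    rwa [e9] at h9
  by_cases h2 : (2 : F) = 0
  · haveI := charP_two_of h2
    have hc : ringChar F = 2 := ringChar.eq F 2
    have hscale : ∀ (u : ι → F) (hu : Q u ≠ 0), ∃ (s : F) (hs : s ≠ 0), Q (s • u) = Q v₀ := by
      intro u hu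
      obtain ⟨s, hs⟩ := FiniteField.isSquare_of_char_two hc (Q v₀ / Q u)
      refine ⟨s, ?_, ?_⟩
      · rintro rfl
        rw [mul_zero, div_eq_zero_iff] at hs
        rcases hs with hs | hs
        · exact h0 hs
        · exact hu hs
      · rw [Q_smul, ← hs]
        field_simp
    have hpair : ∀ (u : ι → F) (hu : Q u ≠ 0), ((reflectionIso Q u hu * r₀ : 𝕀) : GL ι F) ∈ M := by
      intro u hu
      obtain ⟨s, hs, hQs⟩ := hscale u hu
      obtain ⟨-, hne, hm⟩ := hall _ hQs
      have hr : reflectionIso Q (s • u) hne = reflectionIso Q u hu := by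
        apply Subtype.ext
        apply Units.ext
        change Cfsg.reflectionMatrix (⇑Q) (s • u) = Cfsg.reflectionMatrix (⇑Q) u
        exact reflectionMatrix_smul Q s hs u hu
      rwa [hr] at hm
    rintro _ ⟨g, hgΩ, rfl⟩
    rw [omega_eq_closure_pairs hQ (Or.inr (by omega))] at hgΩ
    have hle : Subgroup.closure {g : 𝕀 | ∃ u v : ι → F, Q u ≠ 0 ∧
        Q v ≠ 0 ∧ ((g : GL ι F) : Matrix ι ι F) = Cfsg.reflectionMatrix (⇑Q) u * Cfsg.reflectionMatrix (⇑Q) v} ≤
        M.comap (Cfsg.isometryGroup F (⇑Q)).subtype := by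
      rw [Subgroup.closure_le]
      rintro g ⟨u, v, hu, hv, hg⟩
      have h1 : g = reflectionIso Q u hu * reflectionIso Q v hv := by
        apply Subtype.ext
        apply Units.ext
        exact hg
      rw [h1]
      have h3 := M.mul_mem (hpair u hu) (hinvM _ (reflectionIso_mul_self Q v hv) (hpair v hv))
      have e : reflectionIso Q u hu * r₀ * (r₀ * reflectionIso Q v hv) = reflectionIso Q u hu * reflectionIso Q v hv := by
        rw [mul_assoc, ← mul_assoc r₀, hr₀2, one_mul]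
      change ((reflectionIso Q u hu * reflectionIso Q v hv : 𝕀) : GL ι F) ∈ M
      rw [← e]
      exact h3
    exact hle hgΩ
  · -- odd characteristic
    set s := Q v₀ with hs
    have hcl : ∀ g ∈ classGroup Q s, (g : GL ι F) ∈ M ∨ ((g * r₀ : 𝕀) : GL ι F) ∈ M := by
      intro g hg
      have hstep : ∀ (x y : 𝕀), (∃ (v : ι → F) (t : F), t ≠ 0 ∧ Q v = s * t ^ 2 ∧
          ((y : GL ι F) : Matrix ι ι F) = Cfsg.reflectionMatrix (⇑Q) v) →
          ((x : GL ι F) ∈ M ∨ ((x * r₀ : 𝕀) : GL ι F) ∈ M) →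
          y * y = 1 ∧ (((x * y : 𝕀) : GL ι F) ∈ M ∨ ((x * y * r₀ : 𝕀) : GL ι F) ∈ M) := by
        rintro x y ⟨v, t', ht', hQv, hgv⟩ hx
        have hs2 : t'⁻¹ ≠ 0 := inv_ne_zero ht'
        have hQv0 : Q v ≠ 0 := by
          rw [hQv]
          exact mul_ne_zero h0 (pow_ne_zero _ ht')
        have hQv' : Q (t'⁻¹ • v) = s := by
          rw [Q_smul, hQv]
          field_simp
        obtain ⟨-, hne, hm⟩ := hall _ hQv'
        have hr : reflectionIso Q (t'⁻¹ • v) hne = y := by
          apply Subtype.ext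
          apply Units.ext
          rw [hgv]
          change Cfsg.reflectionMatrix (⇑Q) (t'⁻¹ • v) = Cfsg.reflectionMatrix (⇑Q) v
          exact reflectionMatrix_smul Q t'⁻¹ hs2 v hQv0
        rw [hr] at hm
        have hy2 : y * y = 1 := by
          rw [← hr]
          exact reflectionIso_mul_self Q _ _
        refine ⟨hy2, ?_⟩
        rcases hx with hx | hx
        · right
          have e : x * y * r₀ = x * (y * r₀) := mul_assoc _ _ _
          rw [e]
          exact M.mul_mem hx hm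
        · left
          have h10 := M.mul_mem hx (hinvM y hy2 hm)
          have e10 : x * r₀ * (r₀ * y) = x * y := by
            rw [mul_assoc, ← mul_assoc r₀, hr₀2, one_mul]
          rw [← e10]
          exact h10
      induction hg using Subgroup.closure_induction_right with
      | one =>
        left
        exact M.one_mem
      | mul_right x hx y hy ih =>
        exact (hstep x y hy ih).2
      | mul_inv_cancel x hx y hy ih =>
        have h1 := hstep x y hy ih
        have : y⁻¹ = y := inv_eq_of_mul_eq_one_left h1.1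
        rw [this]
        exact h1.2
    have hidx := classGroup_index (Q := Q) hQ h2 (by omega) (Or.inr (Or.inl hn)) h0
    have hΩ : Cfsg.Omega F (⇑Q) ≤ classGroup Q s := by
      have hnorm : (classGroup Q s).Normal := Subgroup.normal_of_index_eq_two hidx
      change commutator _ ≤ _
      rw [commutator_def, Subgroup.commutator_le]
      intro g₁ _ g₂ _
      rw [commutatorElement_def, Subgroup.mul_mem_iff_of_index_two hidx, inv_mem_iff]
      constructor
      · intro h
        have := hnorm.conj_mem _ h g₁⁻¹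
        simpa [mul_assoc] using this
      · intro h
        exact hnorm.conj_mem _ h g₁
    rintro _ ⟨g, hgΩ, rfl⟩
    rcases hcl g (hΩ hgΩ) with h1 | h1
    · exact h1
    · exfalso
      obtain ⟨g', hg'Ω, hg'⟩ := hMΩ h1
      have hg'2 : g' = g * r₀ := Subtype.ext hg'
      have hr₀Ω : r₀ ∈ Cfsg.Omega F (⇑Q) := by
        have := (Cfsg.Omega F (⇑Q)).mul_mem ((Cfsg.Omega F (⇑Q)).inv_mem hgΩ) hg'Ω
        rwa [hg'2, inv_mul_cancel_left] at this
      obtain ⟨h3, h4⟩ := (mem_omega_iff Q hQ h2 _).1 hr₀Ω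
      rw [hr₀, plusSign_reflection Q h2] at h3
      rw [hr₀, spinorSign_reflection Q h2] at h4
      by_cases hsq : IsSquare (Q v₀)
      · rw [if_pos hsq] at h3
        exact absurd h3 (by decide)
      · rw [if_neg hsq] at h4
        exact absurd h4 (by decide)

end Cfsg.Agent.Lib.Classical.Decomp.Ev
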