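/-
Even dimension: if no class of a member vector leaves the members, then every element of `M` lies in the stabiliser of the decomposition.
-/
import Mathlib
import Cfsg.Agent.Lib.Classical.Decomp.Ev.Sys

set_option autoImplicit false
set_option linter.unusedSectionVars false
set_option linter.unusedSimpArgs false
set_option linter.unusedVariables false

namespace Cfsg.Agent.Lib.Classical.Decomp.Ev

open Matrix QuadraticMap Module Cfsg.Geo
open Cfsg.Agent.Lib.Classical.Decomp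
open Cfsg.Agent.Lib.Classical.Orth.Basic
open Cfsg.Agent.Lib.Classical.Orth.Spinor
open Cfsg.Agent.Lib.Classical.Orth.CartanDieudonne
open Cfsg.Agent.Lib.Classical.Orth.Dickson

variable {ι : Type} [Fintype ι] [DecidableEq ι] {F : Type*} [Field F] [Fintype F]
variable {Q : QuadraticForm F (ι → F)}

set_option quotPrecheck false in
local notation "𝔣" => polar (⇑Q)
set_option quotPrecheck false in
local notation "𝕀" => ↥(Cfsg.isometryGroup F (⇑Q))

variable {t k : ℕ} {D : Fin t → Submodule F (ι → F)} {π : Fin t → (ι → F) →ₗ[F] (ι → F)}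

/-- The spanning property of vectors of norm `c` in the members. -/
def SpanProp (Q : QuadraticForm F (ι → F)) (D : Fin t → Submodule F (ι → F)) (c : F) : Prop :=
  ∀ (i : Fin t) (U : Fin t → Submodule F (ι → F)),
    (∀ j j', j ≠ j' → ∀ u ∈ U j, ∀ v ∈ U j', polar (⇑Q) u v = 0) → (∀ b ∈ D i, Q b = c → ∃ j, b ∈ U j) →
    ∃ j, D i ≤ U j

/-- No class of a member vector leaves the members. -/
def NoMerge (Q : QuadraticForm F (ι → F)) (D : Fin t → Submodule F (ι → F)) (M : Subgroup (GL ι F)) : Prop :=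
  ∀ (i : Fin t) (v₀ : ι → F) (h0 : Q v₀ ≠ 0), v₀ ∈ D i → ∀ y ∈ Cl Q M v₀ h0, ∃ j, y ∈ D j

theorem mem_stab_of_noMerge (dec : Dec Q k D π) (hQ : (polarBilin Q).Nondegenerate) (hn : Fintype.card ι ≠ 4)
    (hk : 0 < k) {M : Subgroup (GL ι F)} (hH : decompositionStabilizer D ⊓ omegaGL (⇑Q) ≤ M)
    (hNM : NoMerge Q D M) (hspan : ∀ c : F, c ≠ 0 → SpanProp Q D c)
    {m : 𝕀} (hm : (m : GL ι F) ∈ M) {i j : Fin t} {x : ι → F} (hx : x ∈ D i) (h0 : Q x ≠ 0)
    (hmx : act m x ∈ D j) : (m : GL ι F) ∈ decompositionStabilizer D := by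
  have hall : ∀ i' b, b ∈ D i' → Q b = Q x → ∃ j', act m b ∈ D j' := by
    intro i' b hb hQb
    have hb0 : Q b ≠ 0 := by rw [hQb]; exact h0
    have h1 : ((reflectionIso Q b hb0 * reflectionIso Q x h0 : 𝕀) : GL ι F) ∈ M :=
      hH ⟨(decompositionStabilizer D).mul_mem (refl_stab dec hb hb0) (refl_stab dec hx h0),
        ⟨_, pair_omega hQ hn hb0 h0 hQb, rfl⟩⟩
    have h3 := M.mul_mem (M.mul_mem hm h1) (M.inv_mem hm)
    have e : m * (reflectionIso Q b hb0 * reflectionIso Q x h0) * m⁻¹ =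
        reflectionIso Q (act m b) (by rwa [Q_act]) * reflectionIso Q (act m x) (by rwa [Q_act]) := by
      rw [← conj_reflectionIso m b hb0, ← conj_reflectionIso m x h0]
      group
    have h4 : ((reflectionIso Q (act m b) (by rwa [Q_act]) * reflectionIso Q (act m x) (by rwa [Q_act]) : 𝕀) : GL ι F) ∈ M := by
      rw [← e]
      exact h3
    exact hNM j (act m x) (by rwa [Q_act]) hmx _ ⟨by rw [Q_act, Q_act]; exact hQb, by rwa [Q_act], h4⟩
  apply mem_stab_of_maps dec hk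
  intro i''
  let U : Fin t → Submodule F (ι → F) := fun j => (D j).comap (Matrix.toLin' ((m : GL ι F) : Matrix ι ι F))
  have hU : ∀ j y, y ∈ U j ↔ act m y ∈ D j := fun j y => Iff.rfl
  obtain ⟨j', hj'⟩ := hspan (Q x) h0 i'' U
    (by
      intro j₁ j₂ hne u hu v hv
      rw [← polar_act m u v]
      exact dec.orth j₁ j₂ hne _ hu _ hv)
    (fun b hb hQb => hall i'' b hb hQb)
  exact ⟨j', fun y hy => hj' hy⟩

theorem stab_maps {g : GL ι F} (h : g ∈ decompositionStabilizer D) :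
    ∃ σ : Equiv.Perm (Fin t), ∀ l d, d ∈ D l → (g : Matrix ι ι F) *ᵥ d ∈ D (σ l) := by
  obtain ⟨σ, hσ⟩ := h
  refine ⟨σ, fun l d hd => ?_⟩
  rw [← hσ l]
  exact ⟨d, hd, rfl⟩

omit [Fintype F] [DecidableEq ι] in
theorem exists_sep {E : Submodule F (ι → F)} (hE : IsNondegenerateOn (polar (⇑Q)) E) {p p' : ι → F}
    (hp : p ∈ E) (hp' : p' ∈ E) (hind : ∀ l : F, p ≠ l • p') (e : F) : ∃ v ∈ E, 𝔣 p' v = 0 ∧ 𝔣 p v = e := by
  classical
  have h1 : ∃ v ∈ E, 𝔣 p' v = 0 ∧ 𝔣 p v ≠ 0 := by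
    by_cases hp'0 : p' = 0
    · subst hp'0
      have hp0 : p ≠ 0 := by
        have := hind 0
        simpa using this
      obtain ⟨-, y, hy, hpy⟩ := hE p hp hp0
      exact ⟨y, hy, by simp, hpy⟩
    · by_contra hcon
      push Not at hcon
      obtain ⟨-, y, hy, hpy⟩ := hE p' hp' hp'0
      set x₀ := (𝔣 p' y)⁻¹ • y with hx₀
      have hx₀E : x₀ ∈ E := E.smul_mem _ hy
      have hx₀1 : 𝔣 p' x₀ = 1 := by
        rw [hx₀, polar_smul_right', inv_mul_cancel₀ hpy]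
      have hzero : p - (𝔣 p x₀) • p' = 0 := by
        by_contra hne
        obtain ⟨-, z, hz, hzne⟩ := hE _ (E.sub_mem hp (E.smul_mem _ hp')) hne
        apply hzne
        have h3 := hcon (z - (𝔣 p' z) • x₀) (E.sub_mem hz (E.smul_mem _ hx₀E)) (by
          rw [polar_sub_right, polar_smul_right', hx₀1, mul_one, sub_self])
        rw [polar_sub_right, polar_smul_right'] at h3
        rw [polar_sub_left, polar_smul_left']
        linear_combination h3
      exact hind (𝔣 p x₀) (sub_eq_zero.1 hzero)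
  obtain ⟨v, hv, h3, h4⟩ := h1
  refine ⟨(e * (𝔣 p v)⁻¹) • v, E.smul_mem _ hv, ?_, ?_⟩
  · rw [polar_smul_right', h3, mul_zero]
  · rw [polar_smul_right', mul_assoc, inv_mul_cancel₀ h4, mul_one]

theorem act_eq_toLin (g : 𝕀) (x : ι → F) : act g x = Matrix.toLin' ((g : GL ι F) : Matrix ι ι F) x := rfl

/-- Elements preserving every member commute with the projections. -/
theorem comm_pi (dec : Dec Q k D π) {g : 𝕀} (h : ∀ l d, d ∈ D l → act g d ∈ D l) (l : Fin t) (x : ι → F) :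
    π l (act g x) = act g (π l x) := by
  conv_lhs => rw [← dec.sum x]
  rw [act_eq_toLin, map_sum, map_sum, Finset.sum_eq_single l]
  · exact dec.idem l _ (h l _ (dec.mem l x))
  · intro j _ hj
    exact dec.zero l j _ (Ne.symm hj) (h j _ (dec.mem j x))
  · simp

/-- The data for the last step. -/
structure FS (Q : QuadraticForm F (ι → F)) {t : ℕ} (k : ℕ) (D : Fin t → Submodule F (ι → F))
    (π : Fin t → (ι → F) →ₗ[F] (ι → F)) (M : Subgroup (GL ι F)) : Prop where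
  dec : Dec Q k D π
  hQ : (polarBilin Q).Nondegenerate
  hn : Fintype.card ι ≠ 4
  hH : decompositionStabilizer D ⊓ omegaGL (⇑Q) ≤ M
  F1 : ∀ m : ↥(Cfsg.isometryGroup F (⇑Q)), (m : GL ι F) ∈ M → ∀ (i j : Fin t) (x : ι → F), x ∈ D i → Q x ≠ 0 →
    act m x ∈ D j → (m : GL ι F) ∈ decompositionStabilizer D

variable {M : Subgroup (GL ι F)}

theorem pair_omega_sq (hQ : (polarBilin Q).Nondegenerate) (hn : Fintype.card ι ≠ 4) {u v : ι → F} (hu : Q u ≠ 0)
    (hv : Q v ≠ 0) (huv : IsSquare (Q u / Q v)) :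
    reflectionIso Q u hu * reflectionIso Q v hv ∈ Cfsg.Omega F (⇑Q) := by
  by_cases h2 : (2 : F) = 0
  · haveI := charP_two_of h2
    rw [mem_omega_iff_char_two hQ (Or.inr hn), map_mul, dicksonHom_reflection, dicksonHom_reflection]
    decide
  · refine reflection_mul_mem_omega Q h2 v u hv hu ?_
    have := huv.inv
    rwa [inv_div] at this

namespace FS

variable (S : FS Q k D π M)
include S

theorem mem_M {g : 𝕀} (h1 : g ∈ Cfsg.Omega F (⇑Q)) (h3 : (g : GL ι F) ∈ decompositionStabilizer D) :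
    (g : GL ι F) ∈ M := S.hH ⟨h3, ⟨g, h1, rfl⟩⟩

/-- The crossing lemma. -/
theorem cross {m : 𝕀} (hm : (m : GL ι F) ∈ M) (hmS : (m : GL ι F) ∉ decompositionStabilizer D) {i : Fin t}
    {p p' : ι → F} (hp : p ∈ D i) (hp' : p' ∈ D i) (h0 : Q p ≠ 0) (h0' : Q p' ≠ 0) (hind : ∀ l : F, p ≠ l • p')
    (hpres : ∀ l d, d ∈ D l → act (m⁻¹ * (reflectionIso Q p h0 * reflectionIso Q p' h0') * m) d ∈ D l) : False := by
  set ρ : 𝕀 := reflectionIso Q p h0 * reflectionIso Q p' h0' with hρ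
  set ς : 𝕀 := m⁻¹ * ρ * m with hς
  have hsub : ∀ u, act ρ u - u ∈ D i := by
    intro u
    rw [hρ, act_mul, reflectionIso_act p' h0', reflectionIso_act p h0]
    have : u - ((Q p')⁻¹ * 𝔣 p' u) • p' - ((Q p)⁻¹ * 𝔣 p (u - ((Q p')⁻¹ * 𝔣 p' u) • p')) • p - u =
        -(((Q p')⁻¹ * 𝔣 p' u) • p') - ((Q p)⁻¹ * 𝔣 p (u - ((Q p')⁻¹ * 𝔣 p' u) • p')) • p := by abel
    rw [this]
    exact (D i).sub_mem ((D i).neg_mem ((D i).smul_mem _ hp')) ((D i).smul_mem _ hp)
  obtain ⟨v, hv, hv1, hv2⟩ := exists_sep (S.dec.nd i) hp hp' hind (-Q p)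
  have hρv : act ρ v = v + p := by
    rw [hρ, act_mul, reflectionIso_act p' h0', hv1, mul_zero, zero_smul, sub_zero, reflectionIso_act p h0, hv2,
      mul_neg, inv_mul_cancel₀ h0, neg_smul, one_smul, sub_neg_eq_add]
  set a := act m⁻¹ v with ha
  set b := act m⁻¹ p with hb
  have hςa : act ς a - a = b := by
    rw [hς, act_mul, act_mul, ha, act_act_inv, hρv, act_add, add_sub_cancel_left]
  have hcomp : ∀ l, π l b = act ς (π l a) - π l a := by
    intro l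
    rw [← hςa, map_sub, comm_pi S.dec hpres]
  have hQb : Q b ≠ 0 := by rw [hb, Q_act]; exact h0
  obtain ⟨l, hl⟩ : ∃ l, Q (π l b) ≠ 0 := by
    by_contra hcon
    push Not at hcon
    apply hQb
    rw [S.dec.Q_sum b]
    exact Finset.sum_eq_zero (fun i _ => hcon i)
  apply hmS
  refine S.F1 m hm l i (π l b) (S.dec.mem l b) hl ?_
  rw [hcomp, act_sub, hς, act_mul, act_mul, act_act_inv]
  exact hsub _

/-- The case of members of dimension at least three. -/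
theorem final_large (hk : 3 ≤ k) {i₀ : Fin t}
    (hpair : ∀ y : ι → F, Q y ≠ 0 → ∃ (i : Fin t) (p p' : ι → F), p ∈ D i ∧ p' ∈ D i ∧ Q p ≠ 0 ∧ Q p = Q p' ∧
      (∀ l : F, p ≠ l • p') ∧ 𝔣 p y = 0 ∧ 𝔣 p' y = 0)
    (m : 𝕀) (hm : (m : GL ι F) ∈ M) : (m : GL ι F) ∈ decompositionStabilizer D := by
  by_contra hmS
  obtain ⟨x, hx, hx0⟩ := exists_nonsing (S.dec.nd i₀) (by rw [S.dec.dim]; omega)
  obtain ⟨i, p, p', hp, hp', h0, hpp, hind, hf, hf'⟩ := hpair (act m x) (by rwa [Q_act])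
  have h0' : Q p' ≠ 0 := by rw [← hpp]; exact h0
  set ρ : 𝕀 := reflectionIso Q p h0 * reflectionIso Q p' h0' with hρ
  have hρM : (ρ : GL ι F) ∈ M := S.mem_M (pair_omega S.hQ S.hn h0 h0' hpp)
    ((decompositionStabilizer D).mul_mem (refl_stab S.dec hp h0) (refl_stab S.dec hp' h0'))
  have hfix : ∀ y, 𝔣 p y = 0 → 𝔣 p' y = 0 → act ρ y = y := by
    intro y h1 h3
    rw [hρ, act_mul, reflectionIso_act p' h0', h3, mul_zero, zero_smul, sub_zero, reflectionIso_act p h0, h1,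
      mul_zero, zero_smul, sub_zero]
  set ς : 𝕀 := m⁻¹ * ρ * m with hς
  have hςM : (ς : GL ι F) ∈ M := M.mul_mem (M.mul_mem (M.inv_mem hm) hρM) hm
  have hςx : ∀ y, 𝔣 p (act m y) = 0 → 𝔣 p' (act m y) = 0 → act ς y = y := by
    intro y h1 h3
    rw [hς, act_mul, act_mul, hfix _ h1 h3, act_inv_act]
  have hςS : (ς : GL ι F) ∈ decompositionStabilizer D :=
    S.F1 ς hςM i₀ i₀ x hx hx0 (by rw [hςx x hf hf']; exact hx)
  obtain ⟨σ, hσ⟩ := stab_maps hςS
  refine S.cross hm hmS hp hp' h0 h0' hind ?_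
  intro l d hd
  -- a nonzero vector of `D l` fixed by `ς`
  let φ : ↥(D l) →ₗ[F] (F × F) :=
    ((polarBilin Q (act m⁻¹ p)).comp (D l).subtype).prod ((polarBilin Q (act m⁻¹ p')).comp (D l).subtype)
  have hlt : finrank F (F × F) < finrank F (D l) := by
    rw [S.dec.dim, Module.finrank_prod, Module.finrank_self]
    omega
  have hker := LinearMap.ker_ne_bot_of_finrank_lt hlt (f := φ)
  obtain ⟨⟨d₀, hd₀⟩, hd₀k, hd₀0⟩ := Submodule.exists_mem_ne_zero_of_ne_bot hker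
  have hd₀ne : d₀ ≠ 0 := fun h => hd₀0 (Subtype.ext h)
  rw [LinearMap.mem_ker] at hd₀k
  have hφ1 : 𝔣 (act m⁻¹ p) d₀ = 0 := congrArg Prod.fst hd₀k
  have hφ2 : 𝔣 (act m⁻¹ p') d₀ = 0 := congrArg Prod.snd hd₀k
  have hc1 : 𝔣 p (act m d₀) = 0 := by
    rw [← polar_act m⁻¹ p, act_inv_act]
    exact hφ1
  have hc2 : 𝔣 p' (act m d₀) = 0 := by
    rw [← polar_act m⁻¹ p', act_inv_act]
    exact hφ2
  have hfx := hςx d₀ hc1 hc2
  have h3 : act ς d₀ ∈ D (σ l) := hσ l d₀ hd₀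
  rw [hfx] at h3
  have hσl : σ l = l := by
    by_contra hne
    exact hd₀ne (S.dec.eq_zero_of_mem_mem hne h3 hd₀)
  have h4 : act ς d ∈ D (σ l) := hσ l d hd
  rwa [hσl] at h4

end FS

/-- The support lemma for the second case of the last step. -/
theorem three_support {V : Type*} [AddCommGroup V] [Module F V] {A B : Fin t → V} {α₁ α₂ α₃ β₁ β₂ β₃ : F}
    (h₁ : α₁ ≠ 0) (h₂ : α₂ ≠ 0) (h₃ : α₃ ≠ 0) {S₁ S₂ S₃ : Fin t → Prop} (h12 : ∀ m, S₁ m → ¬ S₂ m)
    (h13 : ∀ m, S₁ m → ¬ S₃ m) (h23 : ∀ m, S₂ m → ¬ S₃ m)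
    (H₁ : ∀ m, ¬ S₁ m → α₁ • A m + β₁ • B m = 0) (H₂ : ∀ m, ¬ S₂ m → α₂ • A m + β₂ • B m = 0)
    (H₃ : ∀ m, ¬ S₃ m → α₃ • A m + β₃ • B m = 0) : (∀ m, B m = 0) ∨ ∃ s : F, ∀ m, A m + s • B m = 0 := by
  classical
  have norm : ∀ {α β : F} {m : Fin t}, α ≠ 0 → α • A m + β • B m = 0 → A m + (α⁻¹ * β) • B m = 0 := by
    intro α β m hα h
    have := congrArg (fun z => α⁻¹ • z) h
    simp only [smul_add, smul_smul, inv_mul_cancel₀ hα, one_smul, smul_zero] at this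
    exact this
  have sub0 : ∀ {s s' : F} {m : Fin t}, s ≠ s' → A m + s • B m = 0 → A m + s' • B m = 0 → B m = 0 := by
    intro s s' m hne h h'
    have h5 : (s - s') • B m = 0 := by
      rw [sub_smul]
      have := sub_eq_zero.2 (h.trans h'.symm)
      have e : A m + s • B m - (A m + s' • B m) = s • B m - s' • B m := by abel
      rwa [e] at this
    exact (smul_eq_zero.1 h5).resolve_left (sub_ne_zero.2 hne)
  set s₁ := α₁⁻¹ * β₁
  set s₂ := α₂⁻¹ * β₂
  set s₃ := α₃⁻¹ * β₃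
  by_cases e12 : s₁ = s₂
  · right
    refine ⟨s₁, fun m => ?_⟩
    by_cases hm : S₁ m
    · rw [e12]
      exact norm h₂ (H₂ m (h12 m hm))
    · exact norm h₁ (H₁ m hm)
  by_cases e13 : s₁ = s₃
  · right
    refine ⟨s₁, fun m => ?_⟩
    by_cases hm : S₁ m
    · rw [e13]
      exact norm h₃ (H₃ m (h13 m hm))
    · exact norm h₁ (H₁ m hm)
  by_cases e23 : s₂ = s₃
  · right
    refine ⟨s₂, fun m => ?_⟩
    by_cases hm : S₂ m
    · rw [e23]
      exact norm h₃ (H₃ m (h23 m hm))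
    · exact norm h₂ (H₂ m hm)
  left
  intro m
  by_cases hm₁ : S₁ m
  · exact sub0 e23 (norm h₂ (H₂ m (h12 m hm₁))) (norm h₃ (H₃ m (h13 m hm₁)))
  by_cases hm₂ : S₂ m
  · exact sub0 e13 (norm h₁ (H₁ m hm₁)) (norm h₃ (H₃ m (h23 m hm₂)))
  · exact sub0 e12 (norm h₁ (H₁ m hm₁)) (norm h₂ (H₂ m hm₂))

end Cfsg.Agent.Lib.Classical.Decomp.Ev
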