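/-
Even dimension: the last step when the members are anisotropic planes.
-/
import Mathlib
import Cfsg.Agent.Lib.Classical.Decomp.Ev.Fin

set_option autoImplicit false
set_option linter.unusedSectionVars false
set_option linter.unusedSimpArgs false
set_option linter.unusedVariables false

namespace Cfsg.Agent.Lib.Classical.Decomp.Ev

open Matrix QuadraticMap Module Cfsg.Geo
open Cfsg.Agent.Lib.Classical.Decomp
open Cfsg.Agent.Lib.Classical.Orth.Basic
open Cfsg.Agent.Lib.Classical.Orth.Spinor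
open Cfsg.Agent.Lib.Classical.Orth.CartanDieudonne

variable {ι : Type} [Fintype ι] [DecidableEq ι] {F : Type*} [Field F] [Fintype F]
variable {Q : QuadraticForm F (ι → F)}

set_option quotPrecheck false in
local notation "𝔣" => polar (⇑Q)
set_option quotPrecheck false in
local notation "𝕀" => ↥(Cfsg.isometryGroup F (⇑Q))

variable {t k : ℕ} {D : Fin t → Submodule F (ι → F)} {π : Fin t → (ι → F) →ₗ[F] (ι → F)}
variable {M : Subgroup (GL ι F)}

omit [DecidableEq ι] [Fintype ι] in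
theorem same_class {a b : F} (ha : a ≠ 0) (hb : b ≠ 0) (h : IsSquare a ↔ IsSquare b) : IsSquare (a / b) := by
  by_cases h1 : IsSquare a
  · exact h1.div (h.1 h1)
  · exact isSquare_div_of_not_isSquare hb ha h1 (fun h3 => h1 (h.2 h3))

namespace FS

variable (S : FS Q k D π M)
include S

/-- A member vector whose image has a zero component is impossible when `m` is outside the stabiliser. -/
theorem rot (hk : k = 2)
    (hrot : ∀ j, ∃ u u' : ι → F, u ∈ D j ∧ u' ∈ D j ∧ Q u = Q u' ∧ Q u ≠ 0 ∧ 𝔣 u u' * (4 * Q u ^ 2 - 𝔣 u u' ^ 2) ≠ 0)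
    {m : 𝕀} (hm : (m : GL ι F) ∈ M) (hmS : (m : GL ι F) ∉ decompositionStabilizer D) {i l₀ : Fin t} {x : ι → F}
    (hx : x ∈ D i) (h0 : Q x ≠ 0) (hz : π l₀ (act m x) = 0) : False := by
  obtain ⟨u, u', hu, hu', huu, hA, he⟩ := hrot l₀
  have hA' : Q u' ≠ 0 := by rw [← huu]; exact hA
  set A := Q u with hAdef
  set e := 𝔣 u u' with hedef
  have he0 : e ≠ 0 := left_ne_zero_of_mul he
  have hu'u : 𝔣 u' u = e := by rw [polar_comm]
  set κ := A⁻¹ * e with hκ
  set ρ : 𝕀 := reflectionIso Q u hA * reflectionIso Q u' hA' with hρ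
  have hρM : (ρ : GL ι F) ∈ M := S.mem_M (pair_omega S.hQ S.hn hA hA' huu)
    ((decompositionStabilizer D).mul_mem (refl_stab S.dec hu hA) (refl_stab S.dec hu' hA'))
  have hfix : ∀ y, π l₀ y = 0 → act ρ y = y := by
    intro y hy
    rw [hρ, act_mul, reflectionIso_act u' hA', S.dec.polar_comp hu' y, hy, polar_zero_right, mul_zero, zero_smul, sub_zero,
      reflectionIso_act u hA, S.dec.polar_comp hu y, hy, polar_zero_right, mul_zero, zero_smul, sub_zero]
  have hρu' : act ρ u' = κ • u - u' := by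
    rw [hρ, act_mul, reflectionIso_act u' hA', polar_self_eq, ← huu,
      show A⁻¹ * (2 * A) = 2 by field_simp, two_smul, reflectionIso_act u hA]
    have : u' - (u' + u') = -u' := by abel
    rw [this, polar_neg_right, ← hedef, mul_neg, neg_smul, sub_neg_eq_add, ← hκ]
    abel
  have hρu : act ρ u = (κ * κ - 1) • u - κ • u' := by
    rw [hρ, act_mul, reflectionIso_act u' hA', hu'u, ← huu, ← hκ, reflectionIso_act u hA,
      polar_sub_right, polar_smul_right', polar_self_eq]
    have h1 : A⁻¹ * (2 * A - κ * e) = 2 - κ * κ := by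
      rw [hκ]
      field_simp
    rw [h1, sub_smul, sub_smul, one_smul, two_smul]
    abel
  have hf1 : 𝔣 u (act ρ u') = e := by
    rw [hρu', polar_sub_right, polar_smul_right', polar_self_eq, ← hAdef, ← hedef, hκ]
    field_simp
    ring
  have hf2 : 𝔣 u' (act ρ u) = (κ * κ - 1) * e - κ * (2 * A) := by
    rw [hρu, polar_sub_right, polar_smul_right', polar_smul_right', polar_self_eq, hu'u, ← huu]
  set ς : 𝕀 := m⁻¹ * ρ * m with hς
  have hςM : (ς : GL ι F) ∈ M := M.mul_mem (M.mul_mem (M.inv_mem hm) hρM) hm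
  have hςx : ∀ y, π l₀ (act m y) = 0 → act ς y = y := by
    intro y h1
    rw [hς, act_mul, act_mul, hfix _ h1, act_inv_act]
  have hςS : (ς : GL ι F) ∈ decompositionStabilizer D :=
    S.F1 ς hςM i i x hx h0 (by rw [hςx x hz]; exact hx)
  obtain ⟨σ, hσ⟩ := stab_maps hςS
  have hind : ∀ l : F, u ≠ l • u' := by
    rintro l rfl
    apply he
    have h1 : Q u' * (l * l) = A := by
      rw [hAdef, Q_smul]
      ring
    have h3 : e = l * (2 * Q u') := by
      rw [hedef, polar_smul_left', polar_self_eq]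
    have h4 : A = Q u' := huu
    have h5 : l * l = 1 := by
      have : Q u' * (l * l) = Q u' * 1 := by rw [h1, mul_one, h4]
      exact mul_left_cancel₀ hA' this
    rw [h3, h4]
    have h6 : 4 * Q u' ^ 2 - (l * (2 * Q u')) ^ 2 = 4 * Q u' ^ 2 * (1 - l * l) := by ring
    rw [h6, h5]
    ring
  refine S.cross hm hmS hu hu' hA hA' hind ?_
  intro l d hd
  have h4 : act ς d ∈ D (σ l) := hσ l d hd
  have hσl : σ l = l := by
    by_contra hne
    -- the map to `D l₀`
    let φ : ↥(D l) →ₗ[F] ↥(D l₀) := ((π l₀).comp ((Matrix.toLin' ((m : GL ι F) : Matrix ι ι F)).comp (D l).subtype)).codRestrict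
      (D l₀) (fun y => S.dec.mem l₀ _)
    have hφ : ∀ y, ((φ y : ↥(D l₀)) : ι → F) = π l₀ (act m (y : ι → F)) := fun y => rfl
    have hinj : Function.Injective φ := by
      rw [injective_iff_map_eq_zero]
      rintro ⟨y, hy⟩ h5
      have h6 : π l₀ (act m y) = 0 := by
        have := congrArg (Subtype.val) h5
        rwa [hφ] at this
      have h7 := hςx y h6
      have h8 : act ς y ∈ D (σ l) := hσ l y hy
      rw [h7] at h8
      exact Subtype.ext (S.dec.eq_zero_of_mem_mem hne h8 hy)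
    have hsurj : Function.Surjective φ :=
      (LinearMap.injective_iff_surjective_of_finrank_eq_finrank (by rw [S.dec.dim, S.dec.dim])).1 hinj
    obtain ⟨⟨d₁, hd₁⟩, hφ₁⟩ := hsurj ⟨u, hu⟩
    obtain ⟨⟨d₂, hd₂⟩, hφ₂⟩ := hsurj ⟨u', hu'⟩
    have hv : π l₀ (act m d₁) = u := by
      have := congrArg (Subtype.val) hφ₁
      rwa [hφ] at this
    have hv' : π l₀ (act m d₂) = u' := by
      have := congrArg (Subtype.val) hφ₂
      rwa [hφ] at this
    set v := act m d₁ with hvdef
    set v' := act m d₂ with hv'def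
    have horth : ∀ d₃ d₄, d₃ ∈ D l → d₄ ∈ D l → 𝔣 (act m d₃) (act ρ (act m d₄)) = 0 := by
      intro d₃ d₄ h₃ h₄
      have h5 : act ς d₄ ∈ D (σ l) := hσ l d₄ h₄
      have h6 : 𝔣 d₃ (act ς d₄) = 0 := S.dec.orth l (σ l) (Ne.symm hne) d₃ h₃ _ h5
      rw [← polar_act m, hς, act_mul, act_mul, act_act_inv] at h6
      exact h6
    have hdec : ∀ (w w' z z' : ι → F), π l₀ w = z → π l₀ w' = z' → z ∈ D l₀ → z' ∈ D l₀ →
        𝔣 w (act ρ w') = 𝔣 z (act ρ z') + 𝔣 (w - z) (w' - z') := by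
      intro w w' z z' h₁ h₂ h₃ h₄
      have h5 : π l₀ (w' - z') = 0 := by
        rw [map_sub, h₂, S.dec.idem _ _ h₄, sub_self]
      have h5' : π l₀ (w - z) = 0 := by
        rw [map_sub, h₁, S.dec.idem _ _ h₃, sub_self]
      have h6 : act ρ w' = act ρ z' + (w' - z') := by
        conv_lhs => rw [show w' = z' + (w' - z') by abel]
        rw [act_add, hfix _ h5]
      have hmem : act ρ z' ∈ D l₀ := by
        have : ((ρ : 𝕀) : GL ι F) ∈ decompositionStabilizer D :=
          (decompositionStabilizer D).mul_mem (refl_stab S.dec hu hA) (refl_stab S.dec hu' hA')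
        rw [hρ, act_mul, reflectionIso_act u' hA', reflectionIso_act u hA]
        exact (D l₀).sub_mem ((D l₀).sub_mem h₄ ((D l₀).smul_mem _ hu')) ((D l₀).smul_mem _ hu)
      have h7 : 𝔣 z (w' - z') = 0 := by
        rw [S.dec.polar_comp h₃, h5, polar_zero_right]
      have h8 : 𝔣 (act ρ z') (w - z) = 0 := by
        rw [S.dec.polar_comp hmem, h5', polar_zero_right]
      have h9 : 𝔣 (w - z) (act ρ z') = 0 := by
        rw [polar_comm]
        exact h8
      have h10 : w = z + (w - z) := by abel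
      rw [h6]
      conv_lhs => rw [h10]
      rw [polar_add_left, polar_add_right, polar_add_right, h7, h9]
      ring
    have h₁ := hdec v v' u u' hv hv' hu hu'
    have h₂ := hdec v' v u' u hv' hv hu' hu
    rw [horth d₁ d₂ hd₁ hd₂, hf1] at h₁
    rw [horth d₂ d₁ hd₂ hd₁, hf2, polar_comm (⇑Q) (v' - u') (v - u)] at h₂
    apply he
    have h10 : e = (κ * κ - 1) * e - κ * (2 * A) := by
      linear_combination h₂ - h₁
    have h11 : A * A * e = e * e * e - A * A * e - 2 * A * A * e := by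
      have : κ * A = e := by
        rw [hκ]
        field_simp
      have h12 : A * A * ((κ * κ - 1) * e - κ * (2 * A)) = e * e * e - A * A * e - 2 * A * A * e := by
        have e1 : A * A * ((κ * κ - 1) * e - κ * (2 * A)) = (κ * A) * (κ * A) * e - A * A * e - 2 * (κ * A) * A * A := by ring
        rw [e1, this]
        ring
      rw [← h12]
      conv_lhs => rw [h10]
    linear_combination h11
  rwa [hσl] at h4

/-- The involution step: some member vector has a preimage with a zero component. -/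
theorem tau (hk : k = 2) (ht : 7 ≤ t) (haniso : ∀ i x, x ∈ D i → x ≠ 0 → Q x ≠ 0)
    {m : 𝕀} (hm : (m : GL ι F) ∈ M) {i₀ : Fin t} {x : ι → F} (hx : x ∈ D i₀) (h0 : Q x ≠ 0) :
    ∃ (i l₀ : Fin t) (w : ι → F), w ∈ D i ∧ Q w ≠ 0 ∧ π l₀ (act m⁻¹ w) = 0 := by
  classical
  set y := act m x with hy
  have hperp : ∀ i, ∃ w ∈ D i, w ≠ 0 ∧ 𝔣 y w = 0 := by
    intro i
    let φ : ↥(D i) →ₗ[F] F := (polarBilin Q y).comp (D i).subtype
    have hlt : finrank F F < finrank F (D i) := by
      rw [S.dec.dim, Module.finrank_self]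
      omega
    have hker := LinearMap.ker_ne_bot_of_finrank_lt hlt (f := φ)
    obtain ⟨⟨w, hw⟩, hwk, hw0⟩ := Submodule.exists_mem_ne_zero_of_ne_bot hker
    exact ⟨w, hw, fun h => hw0 (Subtype.ext h), hwk⟩
  choose w hw hw0 hwy using hperp
  have hQw : ∀ i, Q (w i) ≠ 0 := fun i => haniso i _ (hw i) (hw0 i)
  -- two of three classes agree
  obtain ⟨i, j, hij, hsq⟩ : ∃ i j : Fin t, i ≠ j ∧ IsSquare (Q (w i) / Q (w j)) := by
    let i₁ : Fin t := ⟨0, by omega⟩
    let i₂ : Fin t := ⟨1, by omega⟩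
    let i₃ : Fin t := ⟨2, by omega⟩
    have h12 : i₁ ≠ i₂ := by simp [i₁, i₂, Fin.ext_iff]
    have h13 : i₁ ≠ i₃ := by simp [i₁, i₃, Fin.ext_iff]
    have h23 : i₂ ≠ i₃ := by simp [i₂, i₃, Fin.ext_iff]
    by_cases c12 : IsSquare (Q (w i₁)) ↔ IsSquare (Q (w i₂))
    · exact ⟨i₁, i₂, h12, same_class (hQw _) (hQw _) c12⟩
    by_cases c13 : IsSquare (Q (w i₁)) ↔ IsSquare (Q (w i₃))
    · exact ⟨i₁, i₃, h13, same_class (hQw _) (hQw _) c13⟩
    refine ⟨i₂, i₃, h23, same_class (hQw _) (hQw _) ?_⟩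
    tauto
  set a := act m⁻¹ (w i) with ha
  set a' := act m⁻¹ (w j) with ha'
  have hww : 𝔣 (w i) (w j) = 0 := S.dec.orth i j hij _ (hw i) _ (hw j)
  set τ : 𝕀 := reflectionIso Q (w i) (hQw i) * reflectionIso Q (w j) (hQw j) with hτ
  have hτM : (τ : GL ι F) ∈ M := S.mem_M (pair_omega_sq S.hQ S.hn (hQw i) (hQw j) hsq)
    ((decompositionStabilizer D).mul_mem (refl_stab S.dec (hw i) (hQw i)) (refl_stab S.dec (hw j) (hQw j)))
  have hτact : ∀ z, act τ z = z - ((Q (w j))⁻¹ * 𝔣 (w j) z) • w j - ((Q (w i))⁻¹ * 𝔣 (w i) z) • w i := by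
    intro z
    rw [hτ, act_mul, reflectionIso_act (w j) (hQw j), reflectionIso_act (w i) (hQw i), polar_sub_right,
      polar_smul_right', hww, mul_zero, sub_zero]
  set ς : 𝕀 := m⁻¹ * τ * m with hς
  have hςM : (ς : GL ι F) ∈ M := M.mul_mem (M.mul_mem (M.inv_mem hm) hτM) hm
  have hςact : ∀ z, act ς z = z - ((Q (w j))⁻¹ * 𝔣 (w j) (act m z)) • a' - ((Q (w i))⁻¹ * 𝔣 (w i) (act m z)) • a := by
    intro z
    rw [hς, act_mul, act_mul, hτact, act_sub, act_sub, act_smul, act_smul, act_inv_act]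
  have hςx : act ς x = x := by
    rw [hςact, ← hy, polar_comm (⇑Q) (w j) y, polar_comm (⇑Q) (w i) y, hwy, hwy]
    simp
  have hςS : (ς : GL ι F) ∈ decompositionStabilizer D :=
    S.F1 ς hςM i₀ i₀ x hx h0 (by rw [hςx]; exact hx)
  obtain ⟨σ, hσ⟩ := stab_maps hςS
  by_contra hcon
  have hne : ∀ l, π l a ≠ 0 := by
    intro l hl
    exact hcon ⟨i, l, w i, hw i, hQw i, hl⟩
  have hd : ∀ l, ∃ d ∈ D l, 𝔣 a d ≠ 0 := by
    intro l
    obtain ⟨-, d, hd, hd1⟩ := S.dec.nd l _ (S.dec.mem l a) (hne l)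
    refine ⟨d, hd, ?_⟩
    rw [S.dec.polar_comp' hd a]
    exact hd1
  choose d hdm hda using hd
  -- the coefficients
  let α : Fin t → F := fun l => (Q (w i))⁻¹ * 𝔣 (w i) (act m (d l))
  let β : Fin t → F := fun l => (Q (w j))⁻¹ * 𝔣 (w j) (act m (d l))
  have hα : ∀ l, α l ≠ 0 := by
    intro l
    refine mul_ne_zero (inv_ne_zero (hQw i)) ?_
    have : 𝔣 (w i) (act m (d l)) = 𝔣 a (d l) := by
      have h7 := polar_act m a (d l)
      rw [ha, act_act_inv] at h7
      exact h7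
    rw [this]
    exact hda l
  have hcomp : ∀ l r, r ≠ l → r ≠ σ l → α l • π r a + β l • π r a' = 0 := by
    intro l r h1 h3
    have h4 : act ς (d l) ∈ D (σ l) := hσ l _ (hdm l)
    have h5 : π r (act ς (d l)) = 0 := S.dec.zero r (σ l) _ h3 h4
    have h6 : π r (d l) = 0 := S.dec.zero r l _ h1 (hdm l)
    rw [hςact, map_sub, map_sub, h6, map_smul, map_smul] at h5
    have h7 : α l • π r a + β l • π r a' = -(0 - β l • π r a' - α l • π r a) := by abel
    rw [h7]
    change -(0 - β l • π r a' - α l • π r a) = 0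
    rw [h5, neg_zero]
  -- the indices
  let l₁ : Fin t := ⟨0, by omega⟩
  obtain ⟨l₂, hl₂⟩ : ∃ l, l ∉ ({l₁, σ l₁, σ⁻¹ l₁} : Finset (Fin t)) := by
    by_contra hc
    push Not at hc
    have h1 : (Finset.univ : Finset (Fin t)) ⊆ {l₁, σ l₁, σ⁻¹ l₁} := fun l _ => hc l
    have h3 := Finset.card_le_card h1
    rw [Finset.card_univ, Fintype.card_fin] at h3
    have := h3.trans Finset.card_le_three
    omega
  obtain ⟨l₃, hl₃⟩ : ∃ l, l ∉ ({l₁, σ l₁, σ⁻¹ l₁, l₂, σ l₂, σ⁻¹ l₂} : Finset (Fin t)) := by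
    by_contra hc
    push Not at hc
    have h1 : (Finset.univ : Finset (Fin t)) ⊆ {l₁, σ l₁, σ⁻¹ l₁, l₂, σ l₂, σ⁻¹ l₂} := fun l _ => hc l
    have h3 := Finset.card_le_card h1
    rw [Finset.card_univ, Fintype.card_fin] at h3
    have := h3.trans Finset.card_le_six
    omega
  simp only [Finset.mem_insert, Finset.mem_singleton, not_or] at hl₂ hl₃
  obtain ⟨h21, h22, h23⟩ := hl₂
  obtain ⟨h31, h32, h33, h34, h35, h36⟩ := hl₃
  have hinv : ∀ {p q : Fin t}, p ≠ σ⁻¹ q → σ p ≠ q := by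
    intro p q h1 h3
    apply h1
    rw [← h3]
    simp
  have hres := three_support (A := fun r => π r a) (B := fun r => π r a') (S₁ := fun r => r = l₁ ∨ r = σ l₁)
    (S₂ := fun r => r = l₂ ∨ r = σ l₂) (S₃ := fun r => r = l₃ ∨ r = σ l₃)
    (hα l₁) (hα l₂) (hα l₃)
    (by
      rintro r (rfl | rfl) (rfl | h)
      · exact h21 rfl
      · exact (hinv h23).elim h.symm
      · exact h22 rfl
      · exact h21 (σ.injective h).symm)
    (by
      rintro r (rfl | rfl) (rfl | h)
      · exact h31 rfl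
      · exact (hinv h33).elim h.symm
      · exact h32 rfl
      · exact h31 (σ.injective h).symm)
    (by
      rintro r (rfl | rfl) (rfl | h)
      · exact h34 rfl
      · exact (hinv h36).elim h.symm
      · exact h35 rfl
      · exact h34 (σ.injective h).symm)
    (fun r hr => hcomp l₁ r (fun h => hr (Or.inl h)) (fun h => hr (Or.inr h)))
    (fun r hr => hcomp l₂ r (fun h => hr (Or.inl h)) (fun h => hr (Or.inr h)))
    (fun r hr => hcomp l₃ r (fun h => hr (Or.inl h)) (fun h => hr (Or.inr h)))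
  rcases hres with h1 | ⟨s, h1⟩
  · apply hQw j
    have : Q a' = Q (w j) := by rw [ha', Q_act]
    rw [← this, S.dec.Q_sum a']
    exact Finset.sum_eq_zero (fun r _ => by
      have h9 : π r a' = 0 := h1 r
      rw [h9, QuadraticMap.map_zero])
  · have h3 : a + s • a' = 0 := by
      apply S.dec.ext
      intro r
      rw [map_add, map_smul, map_zero]
      exact h1 r
    have h4 : w i + s • w j = 0 := by
      have := congrArg (act m) h3
      rw [act_add, act_smul, ha, ha', act_act_inv, act_act_inv] at this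
      rw [this]
      exact act_zero m
    have h5 := congrArg (π i) h4
    rw [map_add, map_smul, S.dec.idem i _ (hw i), S.dec.zero i j _ hij (hw j), smul_zero, add_zero, map_zero] at h5
    exact hw0 i h5

/-- The last step for planes. -/
theorem final_plane (hk : k = 2) (ht : 7 ≤ t) (haniso : ∀ i x, x ∈ D i → x ≠ 0 → Q x ≠ 0)
    (hrot : ∀ j, ∃ u u' : ι → F, u ∈ D j ∧ u' ∈ D j ∧ Q u = Q u' ∧ Q u ≠ 0 ∧ 𝔣 u u' * (4 * Q u ^ 2 - 𝔣 u u' ^ 2) ≠ 0)
    (m : 𝕀) (hm : (m : GL ι F) ∈ M) : (m : GL ι F) ∈ decompositionStabilizer D := by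
  by_contra hmS
  let i₀ : Fin t := ⟨0, by omega⟩
  obtain ⟨x, hx, hx0⟩ := exists_nonsing (S.dec.nd i₀) (by rw [S.dec.dim]; omega)
  obtain ⟨i, l₀, w, hw, hw0, hz⟩ := S.tau hk ht haniso hm hx hx0
  have hm' : ((m⁻¹ : 𝕀) : GL ι F) ∈ M := M.inv_mem hm
  have hmS' : ((m⁻¹ : 𝕀) : GL ι F) ∉ decompositionStabilizer D := fun h =>
    hmS (by
      have := (decompositionStabilizer D).inv_mem h
      simpa using this)
  exact S.rot hk hrot hm' hmS' hw hw0 hz

end FS

end Cfsg.Agent.Lib.Classical.Decomp.Ev
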