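/-
Anisotropic planes: multiplicativity of the norm, and the set of ratios `Th` of norms of differences of vectors of equal norm with
its lower bound on the cardinality.
-/
import Mathlib
import Cfsg.Agent.Lib.Classical.Decomp.Ev.Sys

set_option autoImplicit false
set_option linter.unusedSectionVars false
set_option linter.unusedSimpArgs false
set_option linter.unusedVariables false

namespace Cfsg.Agent.Lib.Classical.Decomp.Ev

open Matrix QuadraticMap Module Cfsg.Geo
open Cfsg.Agent.Lib.Classical.Decomp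
open Cfsg.Agent.Lib.Classical.Orth.Basic
open Cfsg.Agent.Lib.Classical.Orth.Spinor

variable {ι : Type} [Fintype ι] [DecidableEq ι] {F : Type*} [Field F] [Fintype F]
variable {Q : QuadraticForm F (ι → F)}

set_option quotPrecheck false in
local notation "𝔣" => polar (⇑Q)

variable {t k : ℕ} {D : Fin t → Submodule F (ι → F)} {π : Fin t → (ι → F) →ₗ[F] (ι → F)}

omit [Fintype F] in
theorem exists_indep {E : Submodule F (ι → F)} (hdim : 2 ≤ finrank F E) (a : ι → F) :
    ∃ w ∈ E, ∀ l : F, w ≠ l • a := by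
  by_contra hcon
  push Not at hcon
  have h1 : E ≤ Submodule.span F {a} := by
    intro w hw
    obtain ⟨l, hl⟩ := hcon w hw
    rw [hl]
    exact Submodule.smul_mem _ _ (Submodule.mem_span_singleton_self a)
  have h3 := Submodule.finrank_mono h1
  have h4 : finrank F (Submodule.span F {a}) ≤ 1 := by
    by_cases ha : a = 0
    · rw [ha, Submodule.span_zero_singleton, finrank_bot]
      omega
    · rw [finrank_span_singleton ha]
  omega

omit [Fintype F] in
theorem coord {E : Submodule F (ι → F)} (hdim : finrank F E = 2) {a w : ι → F} (ha : a ∈ E) (hw : w ∈ E) (ha0 : a ≠ 0)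
    (hind : ∀ l : F, w ≠ l • a) (x : ι → F) (hx : x ∈ E) : ∃ u v : F, x = u • a + v • w := by
  have hli : LinearIndependent F ![a, w] := by
    rw [LinearIndependent.pair_iff]
    intro s r hsr
    by_cases hr : r = 0
    · subst hr
      simp only [zero_smul, add_zero] at hsr
      exact ⟨(smul_eq_zero.1 hsr).resolve_right ha0, rfl⟩
    · exfalso
      apply hind (-(r⁻¹ * s))
      have h1 : w = r⁻¹ • (r • w) := by rw [smul_smul, inv_mul_cancel₀ hr, one_smul]
      have h3 : r • w = -(s • a) := (eq_neg_of_add_eq_zero_right hsr)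
      rw [h1, h3, smul_neg, smul_smul, neg_smul]
  have hle : Submodule.span F {a, w} ≤ E := by
    rw [Submodule.span_le]
    rintro y (rfl | rfl)
    · exact ha
    · exact hw
  have hfin : finrank F (Submodule.span F {a, w}) = 2 := by
    have h9 := finrank_span_eq_card hli
    have e : Set.range ![a, w] = {a, w} := by
      rw [Matrix.range_cons, Matrix.range_cons, Matrix.range_empty]
      ext x
      simp
      exact or_comm
    rw [e] at h9
    simpa using h9
  have heq := Submodule.eq_of_le_of_finrank_eq hle (by rw [hfin, hdim])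
  rw [← heq] at hx
  obtain ⟨u, v, huv⟩ := Submodule.mem_span_pair.1 hx
  exact ⟨u, v, huv.symm⟩

omit [Fintype F] in
/-- Multiplicativity of the norm on a plane with a vector of norm one. -/
theorem simil_pair {E : Submodule F (ι → F)} (hdim : finrank F E = 2) {a₁ a y₀ : ι → F} (ha₁ : a₁ ∈ E) (hQ1 : Q a₁ = 1)
    (ha : a ∈ E) (hy : y₀ ∈ E) : ∃ y' ∈ E, Q y' = Q a * Q y₀ ∧ Q (a + y') = Q a * Q (a₁ + y₀) := by
  obtain ⟨w₁, hw₁, hind⟩ := exists_indep (E := E) (by omega) a₁
  have ha₁0 : a₁ ≠ 0 := by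
    rintro rfl
    rw [QuadraticMap.map_zero] at hQ1
    exact zero_ne_one hQ1
  obtain ⟨u₀, v₀, rfl⟩ := coord hdim ha₁ hw₁ ha₁0 hind a ha
  obtain ⟨u, v, rfl⟩ := coord hdim ha₁ hw₁ ha₁0 hind y₀ hy
  set T := 𝔣 a₁ w₁ with hT
  set n := Q w₁ with hn
  have hform : ∀ α β : F, Q (α • a₁ + β • w₁) = α * α + T * (α * β) + n * (β * β) := by
    intro α β
    rw [Q_add, Q_smul, Q_smul, polar_smul_left', polar_smul_right', hQ1, ← hT, ← hn]
    ring
  set a' := u₀ • a₁ + v₀ • w₁ with ha'
  set a₂ := (-(v₀ * n)) • a₁ + (u₀ + v₀ * T) • w₁ with ha₂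
  have hcomb : ∀ p r : F, p • a' + r • a₂ = (p * u₀ - r * (v₀ * n)) • a₁ + (p * v₀ + r * (u₀ + v₀ * T)) • w₁ := by
    intro p r
    rw [ha', ha₂, smul_add, smul_add, smul_smul, smul_smul, smul_smul, smul_smul, sub_eq_add_neg, add_smul, add_smul]
    have e : r * -(v₀ * n) = -(r * (v₀ * n)) := by ring
    rw [e]
    abel
  have hmul : ∀ p r : F, Q (p • a' + r • a₂) = Q a' * Q (p • a₁ + r • w₁) := by
    intro p r
    rw [hcomb, hform, hform, hform]
    ring
  refine ⟨u • a' + v • a₂, E.add_mem (E.smul_mem _ (E.add_mem (E.smul_mem _ ha₁) (E.smul_mem _ hw₁)))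
    (E.smul_mem _ (E.add_mem (E.smul_mem _ ha₁) (E.smul_mem _ hw₁))), hmul u v, ?_⟩
  have e1 : a' + (u • a' + v • a₂) = (1 + u) • a' + v • a₂ := by
    rw [add_smul, one_smul]
    exact (add_assoc _ _ _).symm
  have e2 : a₁ + (u • a₁ + v • w₁) = (1 + u) • a₁ + v • w₁ := by
    rw [add_smul, one_smul]
    exact (add_assoc _ _ _).symm
  rw [e1, e2, hmul]

/-- The ratios of norms. -/
def Th (Q : QuadraticForm F (ι → F)) (D : Fin t → Submodule F (ι → F)) (θ : F) : Prop :=
  θ ≠ 0 ∧ ∀ (l : Fin t) (a : ι → F), a ∈ D l → Q a ≠ 0 → ∃ y ∈ D l, Q y = Q a * θ ∧ Q (a + y) = Q a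

/-- Nondegenerate subspaces of dimension at least two represent every value, in every characteristic. -/
theorem univ_all {E : Submodule F (ι → F)} (hE : IsNondegenerateOn (polar (⇑Q)) E) (hdim : 2 ≤ finrank F E) (s : F) :
    ∃ v ∈ E, Q v = s := by
  by_cases h2 : (2 : F) = 0
  · haveI := charP_two_of h2
    by_cases hs : s = 0
    · exact ⟨0, E.zero_mem, by rw [QuadraticMap.map_zero, hs]⟩
    obtain ⟨v, hv, hv0⟩ := exists_nonsing hE (by omega)
    obtain ⟨r, hr⟩ := FiniteField.isSquare_of_char_two (ringChar.eq F 2) (s / Q v)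
    refine ⟨r • v, E.smul_mem _ hv, ?_⟩
    rw [Q_smul, ← hr]
    field_simp
  · exact universal h2 hE hdim s

theorem th_of_refl (dec : Dec Q 2 D π) (iso : ∀ i j, AreIsometricFor (⇑Q) (D i) (D j)) {i₀ : Fin t} {a₀ u : ι → F}
    (ha₀ : a₀ ∈ D i₀) (hQa₀ : Q a₀ = 1) (hu : u ∈ D i₀) (hu0 : Q u ≠ 0) (hf : 𝔣 a₀ u ≠ 0) :
    Th Q D ((𝔣 a₀ u) ^ 2 / Q u) := by
  refine ⟨div_ne_zero (pow_ne_zero _ hf) hu0, ?_⟩
  intro l a ha ha0
  obtain ⟨e, he⟩ := iso i₀ l
  set y₀ := (-(𝔣 a₀ u / Q u)) • u with hy₀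
  have hy₀E : y₀ ∈ D i₀ := (D i₀).smul_mem _ hu
  have hQy₀ : Q y₀ = (𝔣 a₀ u) ^ 2 / Q u := by
    rw [hy₀, Q_smul]
    field_simp
  have hsum : Q (a₀ + y₀) = 1 := by
    rw [Q_add, hQa₀, hQy₀, hy₀, polar_smul_right']
    field_simp
    ring
  set a' : ↥(D i₀) := e.symm ⟨a, ha⟩ with ha'
  have hQa' : Q (a' : ι → F) = Q a := by
    have := he a'
    rw [ha', LinearEquiv.apply_symm_apply] at this
    exact this.symm
  obtain ⟨y', hy', h1, h3⟩ := simil_pair (dec.dim i₀) ha₀ hQa₀ a'.2 hy₀E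
  refine ⟨(e ⟨y', hy'⟩ : ↥(D l)), Subtype.property _, ?_, ?_⟩
  · rw [he, h1, hQa', hQy₀]
  · have e1 : a + ((e ⟨y', hy'⟩ : ↥(D l)) : ι → F) = ((e (a' + ⟨y', hy'⟩) : ↥(D l)) : ι → F) := by
      rw [map_add, ha', LinearEquiv.apply_symm_apply]
      rfl
    rw [e1, he]
    change Q ((a' : ι → F) + y') = Q a
    rw [h3, hsum, mul_one, hQa']

section Count

variable (dec : Dec Q 2 D π) (iso : ∀ i j, AreIsometricFor (⇑Q) (D i) (D j))
  (haniso : ∀ i x, x ∈ D i → x ≠ 0 → Q x ≠ 0)
include dec iso haniso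

theorem card_th_odd (h2 : (2 : F) ≠ 0) (i₀ : Fin t) :
    Fintype.card F + 1 ≤ 2 * (@Finset.filter F (Th Q D) (Classical.decPred _) Finset.univ).card := by
  classical
  have hnf : ∀ θ, θ ∈ @Finset.filter F (Th Q D) (Classical.decPred _) Finset.univ ↔ Th Q D θ := by
    intro θ
    simp
  obtain ⟨a₀, ha₀, hQa₀⟩ := universal h2 (dec.nd i₀) (by rw [dec.dim]) 1
  have ha₀0 : Q a₀ ≠ 0 := by rw [hQa₀]; exact one_ne_zero
  have hE := nondeg_perpIn (dec.nd i₀) ha₀ h2 ha₀0
  have hd := finrank_perpIn_add ha₀ h2 (Q := Q) ha₀0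
  rw [dec.dim] at hd
  obtain ⟨w, hw, hw0⟩ := exists_nonsing hE (by omega)
  obtain ⟨hwE, haw⟩ := mem_perpIn.1 hw
  set B := Q w with hB
  have hQu : ∀ m : F, Q (m • a₀ + w) = m * m + B := by
    intro m
    rw [Q_add_of_perp (by rw [polar_smul_left', haw, mul_zero]), Q_smul, hQa₀]
    ring
  have hfu : ∀ m : F, 𝔣 a₀ (m • a₀ + w) = 2 * m := by
    intro m
    rw [polar_add_right, polar_smul_right', polar_self_eq, haw, hQa₀]
    ring
  have hune : ∀ m : F, m ≠ 0 → m • a₀ + w ≠ 0 := by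
    intro m hm h
    have := hfu m
    rw [h, polar_zero_right] at this
    exact mul_ne_zero h2 hm this.symm
  have hN : ∀ m : F, m ≠ 0 → m * m + B ≠ 0 := by
    intro m hm
    rw [← hQu]
    exact haniso i₀ _ ((D i₀).add_mem ((D i₀).smul_mem _ ha₀) hwE) (hune m hm)
  let g : F → F := fun m => (2 * m) ^ 2 / (m * m + B)
  have hg : ∀ m, m ≠ 0 → Th Q D (g m) := by
    intro m hm
    have := th_of_refl dec iso ha₀ hQa₀ ((D i₀).add_mem ((D i₀).smul_mem _ ha₀) hwE)
      (Q := Q) (by rw [hQu]; exact hN m hm) (by rw [hfu]; exact mul_ne_zero h2 hm)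
    rwa [hfu, hQu] at this
  have h4 : Th Q D (2 ^ 2) := by
    have := th_of_refl dec iso ha₀ hQa₀ ha₀ ha₀0 (by rw [polar_self_eq, hQa₀, mul_one]; exact h2)
    rwa [polar_self_eq, hQa₀, mul_one, div_one] at this
  set s : Finset F := Finset.univ.erase 0 with hs
  have hscard : s.card = Fintype.card F - 1 := by
    rw [hs, Finset.card_erase_of_mem (Finset.mem_univ _), Finset.card_univ]
  have hfib : ∀ θ ∈ s.image g, (s.filter (fun x => g x = θ)).card ≤ 2 := by
    intro θ hθ
    obtain ⟨m, hm, rfl⟩ := Finset.mem_image.1 hθ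
    have hm0 : m ≠ 0 := (Finset.mem_erase.1 hm).1
    have hsub : s.filter (fun x => g x = g m) ⊆ {m, -m} := by
      intro m' hm'
      obtain ⟨hm's, heq⟩ := Finset.mem_filter.1 hm'
      have hm'0 : m' ≠ 0 := (Finset.mem_erase.1 hm's).1
      have h1 : m' * m' * B = m * m * B := by
        have h5 : (2 * m') ^ 2 / (m' * m' + B) = (2 * m) ^ 2 / (m * m + B) := heq
        rw [div_eq_div_iff (hN m' hm'0) (hN m hm0)] at h5
        have h22 : (4 : F) ≠ 0 := by
          have : (4 : F) = 2 * 2 := by norm_num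
          rw [this]
          exact mul_ne_zero h2 h2
        apply mul_left_cancel₀ h22
        linear_combination h5
      have h3 : m' * m' = m * m := mul_right_cancel₀ hw0 h1
      have h5 : (m' - m) * (m' + m) = 0 := by linear_combination h3
      rcases mul_eq_zero.1 h5 with h6 | h6
      · simp [sub_eq_zero.1 h6]
      · simp [eq_neg_of_add_eq_zero_left h6]
    exact (Finset.card_le_card hsub).trans Finset.card_le_two
  have hle := Finset.card_le_mul_card_image s 2 hfib
  have hsub : insert (2 ^ 2) (s.image g) ⊆ @Finset.filter F (Th Q D) (Classical.decPred _) Finset.univ := by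
    intro θ hθ
    rw [hnf]
    rcases Finset.mem_insert.1 hθ with rfl | hθ
    · exact h4
    · obtain ⟨m, hm, rfl⟩ := Finset.mem_image.1 hθ
      exact hg m (Finset.mem_erase.1 hm).1
  have hnot : (2 : F) ^ 2 ∉ s.image g := by
    intro hθ
    obtain ⟨m, hm, heq⟩ := Finset.mem_image.1 hθ
    have hm0 : m ≠ 0 := (Finset.mem_erase.1 hm).1
    have h5 : (2 * m) ^ 2 / (m * m + B) = 2 ^ 2 := heq
    rw [div_eq_iff (hN m hm0)] at h5
    have h22 : (2 : F) ^ 2 ≠ 0 := pow_ne_zero _ h2
    apply hw0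
    apply mul_left_cancel₀ h22
    linear_combination -h5
  have hcard := Finset.card_le_card hsub
  rw [Finset.card_insert_of_notMem hnot] at hcard
  have hpos : 0 < Fintype.card F := Fintype.card_pos
  omega

theorem card_th_two (h2 : (2 : F) = 0) (i₀ : Fin t) :
    Fintype.card F ≤ 2 * (@Finset.filter F (Th Q D) (Classical.decPred _) Finset.univ).card := by
  classical
  have hnf : ∀ θ, θ ∈ @Finset.filter F (Th Q D) (Classical.decPred _) Finset.univ ↔ Th Q D θ := by
    intro θ
    simp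
  obtain ⟨a₀, ha₀, hQa₀⟩ := univ_all (dec.nd i₀) (by rw [dec.dim]) 1
  have ha₀ne : a₀ ≠ 0 := by
    rintro rfl
    rw [QuadraticMap.map_zero] at hQa₀
    exact zero_ne_one hQa₀
  obtain ⟨-, y, hy, hay⟩ := dec.nd i₀ a₀ ha₀ ha₀ne
  set w := (𝔣 a₀ y)⁻¹ • y with hw
  have hwE : w ∈ D i₀ := (D i₀).smul_mem _ hy
  have haw : 𝔣 a₀ w = 1 := by
    rw [hw, polar_smul_right', inv_mul_cancel₀ hay]
  set n := Q w with hn
  have hQu : ∀ m : F, Q (m • a₀ + w) = m * m + m + n := by
    intro m
    rw [Q_add, Q_smul, polar_smul_left', haw, hQa₀]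
    ring
  have hfu : ∀ m : F, 𝔣 a₀ (m • a₀ + w) = 1 := by
    intro m
    rw [polar_add_right, polar_smul_right', polar_self_eq, haw, h2]
    ring
  have hune : ∀ m : F, m • a₀ + w ≠ 0 := by
    intro m h
    have := hfu m
    rw [h, polar_zero_right] at this
    exact zero_ne_one this
  have hN : ∀ m : F, m * m + m + n ≠ 0 := by
    intro m
    rw [← hQu]
    exact haniso i₀ _ ((D i₀).add_mem ((D i₀).smul_mem _ ha₀) hwE) (hune m)
  let g : F → F := fun m => 1 / (m * m + m + n)
  have hg : ∀ m, Th Q D (g m) := by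
    intro m
    have := th_of_refl dec iso ha₀ hQa₀ ((D i₀).add_mem ((D i₀).smul_mem _ ha₀) hwE)
      (Q := Q) (by rw [hQu]; exact hN m) (by rw [hfu]; exact one_ne_zero)
    rw [hfu, hQu, one_pow] at this
    exact this
  have hfib : ∀ θ ∈ (Finset.univ : Finset F).image g, ((Finset.univ : Finset F).filter (fun x => g x = θ)).card ≤ 2 := by
    intro θ hθ
    obtain ⟨m, hm, rfl⟩ := Finset.mem_image.1 hθ
    have hsub : (Finset.univ : Finset F).filter (fun x => g x = g m) ⊆ {m, -m - 1} := by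
      intro m' hm'
      obtain ⟨hm's, heq⟩ := Finset.mem_filter.1 hm'
      have h5 : 1 / (m' * m' + m' + n) = 1 / (m * m + m + n) := heq
      rw [div_eq_div_iff (hN m') (hN m)] at h5
      have h6 : (m' - m) * (m' + m + 1) = 0 := by linear_combination -h5
      rcases mul_eq_zero.1 h6 with h7 | h7
      · simp [sub_eq_zero.1 h7]
      · have : m' = -m - 1 := by linear_combination h7
        simp [this]
    exact (Finset.card_le_card hsub).trans Finset.card_le_two
  have hle := Finset.card_le_mul_card_image (Finset.univ : Finset F) 2 hfib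
  have hsub : (Finset.univ : Finset F).image g ⊆ @Finset.filter F (Th Q D) (Classical.decPred _) Finset.univ := by
    intro θ hθ
    rw [hnf]
    obtain ⟨m, hm, rfl⟩ := Finset.mem_image.1 hθ
    exact hg m
  have hcard := Finset.card_le_card hsub
  rw [Finset.card_univ] at hle
  omega

end Count

end Cfsg.Agent.Lib.Classical.Decomp.Ev
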