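/-
Field lemmas for subsets of at least half the size of the field.
-/
import Mathlib

set_option autoImplicit false
set_option linter.unusedSectionVars false
set_option linter.unusedSimpArgs false
set_option linter.unusedVariables false

namespace Cfsg.Agent.Lib.Classical.Decomp.Ev

variable {F : Type*} [Field F] [Fintype F]

section Half

variable {P : F → Prop} (hP0 : ∀ θ, P θ → θ ≠ 0)
  (hcard : Fintype.card F ≤ 2 * (@Finset.filter F P (Classical.decPred _) Finset.univ).card)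
include hP0 hcard

theorem half_exists_mul {ρ : F} (hρ : ρ ≠ 0) : ∃ θ₁ θ₂, P θ₁ ∧ P θ₂ ∧ θ₁ * θ₂ = ρ := by
  classical
  set T := @Finset.filter F P (Classical.decPred _) Finset.univ with hT
  have hmem : ∀ θ, θ ∈ T ↔ P θ := by
    intro θ
    simp [hT]
  set T' := T.image (fun θ => ρ / θ) with hT'
  have hinj : Set.InjOn (fun θ => ρ / θ) (T : Set F) := by
    intro a ha b hb hab
    have ha0 := hP0 a ((hmem a).1 ha)
    have hb0 := hP0 b ((hmem b).1 hb)
    simp only at hab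
    rw [div_eq_div_iff ha0 hb0] at hab
    exact (mul_left_cancel₀ hρ hab).symm
  have hc' : T'.card = T.card := Finset.card_image_of_injOn hinj
  have h1 : T ⊆ Finset.univ.erase 0 := fun θ hθ =>
    Finset.mem_erase.2 ⟨hP0 θ ((hmem θ).1 hθ), Finset.mem_univ _⟩
  have h3 : T' ⊆ Finset.univ.erase 0 := by
    intro θ hθ
    obtain ⟨a, ha, rfl⟩ := Finset.mem_image.1 hθ
    exact Finset.mem_erase.2 ⟨div_ne_zero hρ (hP0 a ((hmem a).1 ha)), Finset.mem_univ _⟩
  have hlt : (Finset.univ.erase (0 : F)).card < T.card + T'.card := by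
    rw [Finset.card_erase_of_mem (Finset.mem_univ _), Finset.card_univ, hc']
    have := Fintype.card_pos (α := F)
    omega
  obtain ⟨θ, hθ⟩ := Finset.inter_nonempty_of_card_lt_card_add_card h1 h3 hlt
  obtain ⟨h4, h5⟩ := Finset.mem_inter.1 hθ
  obtain ⟨a, ha, rfl⟩ := Finset.mem_image.1 h5
  have ha0 := hP0 a ((hmem a).1 ha)
  exact ⟨ρ / a, a, (hmem _).1 h4, (hmem a).1 ha, by field_simp⟩

theorem half_exists_sum0 {A B : F} (hA : A ≠ 0) (hB : B ≠ 0) (s : F) :
    ∃ s₁ s₂, (s₁ = 0 ∨ P (s₁ / A)) ∧ (s₂ = 0 ∨ P (s₂ / B)) ∧ s₁ + s₂ = s := by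
  classical
  set T := @Finset.filter F P (Classical.decPred _) Finset.univ with hT
  have hmem : ∀ θ, θ ∈ T ↔ P θ := by
    intro θ
    simp [hT]
  have hmulinj : ∀ C : F, C ≠ 0 → Function.Injective (fun θ : F => C * θ) := fun C hC a b hab =>
    mul_left_cancel₀ hC hab
  set X := insert (0 : F) (T.image (fun θ => A * θ)) with hX
  set Y₀ := insert (0 : F) (T.image (fun θ => B * θ)) with hY₀
  set Y := Y₀.image (fun z => s - z) with hY
  have hXc : X.card = T.card + 1 := by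
    rw [hX, Finset.card_insert_of_notMem, Finset.card_image_of_injective _ (hmulinj A hA)]
    intro h
    obtain ⟨a, ha, h0⟩ := Finset.mem_image.1 h
    exact mul_ne_zero hA (hP0 a ((hmem a).1 ha)) h0
  have hYc : Y.card = T.card + 1 := by
    rw [hY, Finset.card_image_of_injective _ (fun a b hab => sub_right_injective hab), hY₀,
      Finset.card_insert_of_notMem, Finset.card_image_of_injective _ (hmulinj B hB)]
    intro h
    obtain ⟨a, ha, h0⟩ := Finset.mem_image.1 h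
    exact mul_ne_zero hB (hP0 a ((hmem a).1 ha)) h0
  have hlt : (Finset.univ : Finset F).card < X.card + Y.card := by
    rw [hXc, hYc, Finset.card_univ]
    omega
  obtain ⟨θ, hθ⟩ := Finset.inter_nonempty_of_card_lt_card_add_card (Finset.subset_univ _) (Finset.subset_univ _) hlt
  obtain ⟨h4, h5⟩ := Finset.mem_inter.1 hθ
  obtain ⟨z, hz, rfl⟩ := Finset.mem_image.1 h5
  refine ⟨s - z, z, ?_, ?_, by ring⟩
  · rcases Finset.mem_insert.1 h4 with h | h
    · exact Or.inl h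
    · obtain ⟨a, ha, h0⟩ := Finset.mem_image.1 h
      right
      rw [← h0, mul_div_cancel_left₀ _ hA]
      exact (hmem a).1 ha
  · rcases Finset.mem_insert.1 hz with h | h
    · exact Or.inl h
    · obtain ⟨a, ha, h0⟩ := Finset.mem_image.1 h
      right
      rw [← h0, mul_div_cancel_left₀ _ hB]
      exact (hmem a).1 ha

end Half

theorem odd_card_of_two {F : Type*} [Field F] [Fintype F] (h2 : (2 : F) ≠ 0) : Fintype.card F % 2 = 1 := by
  have hne : ringChar F ≠ 2 := by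
    intro h
    apply h2
    have : CharP F 2 := ringChar.of_eq h
    exact CharTwo.two_eq_zero
  exact FiniteField.odd_card_of_char_ne_two hne

/-- Squares in a finite field of odd order. -/
theorem isSquare_mul_iff (h2 : (2 : F) ≠ 0) {a b : F} (ha : a ≠ 0) (hb : b ≠ 0) :
    IsSquare (a * b) ↔ (IsSquare a ↔ IsSquare b) := by
  classical
  have hch : ringChar F ≠ 2 := by
    intro h
    apply h2
    have : CharP F 2 := ringChar.of_eq h
    exact CharTwo.two_eq_zero
  have key : ∀ z : F, z ≠ 0 → (IsSquare z ↔ quadraticChar F z = 1) :=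
    fun z hz => (quadraticChar_one_iff_isSquare hz).symm
  rw [key _ (mul_ne_zero ha hb), key a ha, key b hb, map_mul]
  rcases quadraticChar_dichotomy ha with h1 | h1 <;> rcases quadraticChar_dichotomy hb with h3 | h3 <;>
    rw [h1, h3] <;> norm_num

theorem card_sq (h2 : (2 : F) ≠ 0) :
    2 * (@Finset.filter F (fun z => z ≠ 0 ∧ IsSquare z) (Classical.decPred _) Finset.univ).card = Fintype.card F - 1 ∧
    2 * (@Finset.filter F (fun z => z ≠ 0 ∧ ¬ IsSquare z) (Classical.decPred _) Finset.univ).card = Fintype.card F - 1 := by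
  classical
  set S := @Finset.filter F (fun z => z ≠ 0 ∧ IsSquare z) (Classical.decPred _) Finset.univ with hS
  set N := @Finset.filter F (fun z => z ≠ 0 ∧ ¬ IsSquare z) (Classical.decPred _) Finset.univ with hN
  have hSm : ∀ z, z ∈ S ↔ z ≠ 0 ∧ IsSquare z := by
    intro z
    simp [hS]
  have hNm : ∀ z, z ∈ N ↔ z ≠ 0 ∧ ¬ IsSquare z := by
    intro z
    simp [hN]
  have hch : ringChar F ≠ 2 := by
    intro h
    apply h2
    have : CharP F 2 := ringChar.of_eq h
    exact CharTwo.two_eq_zero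
  obtain ⟨η, hη⟩ := FiniteField.exists_nonsquare hch
  have hη0 : η ≠ 0 := by
    rintro rfl
    exact hη IsSquare.zero
  have hinj : Function.Injective (fun z : F => η * z) := fun a b hab => mul_left_cancel₀ hη0 hab
  have h1 : S.card ≤ N.card := by
    rw [← Finset.card_image_of_injective S hinj]
    apply Finset.card_le_card
    intro z hz
    obtain ⟨a, ha, rfl⟩ := Finset.mem_image.1 hz
    obtain ⟨ha0, has⟩ := (hSm a).1 ha
    refine (hNm _).2 ⟨mul_ne_zero hη0 ha0, ?_⟩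
    rw [isSquare_mul_iff h2 hη0 ha0]
    tauto
  have h3 : N.card ≤ S.card := by
    rw [← Finset.card_image_of_injective N hinj]
    apply Finset.card_le_card
    intro z hz
    obtain ⟨a, ha, rfl⟩ := Finset.mem_image.1 hz
    obtain ⟨ha0, has⟩ := (hNm a).1 ha
    refine (hSm _).2 ⟨mul_ne_zero hη0 ha0, ?_⟩
    rw [isSquare_mul_iff h2 hη0 ha0]
    tauto
  have hdisj : Disjoint S N := by
    rw [Finset.disjoint_left]
    intro z h4 h5
    exact ((hNm z).1 h5).2 ((hSm z).1 h4).2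
  have hun : S ∪ N = Finset.univ.erase 0 := by
    ext z
    simp only [Finset.mem_union, hSm, hNm, Finset.mem_erase, Finset.mem_univ, and_true]
    tauto
  have hc := Finset.card_union_of_disjoint hdisj
  rw [hun, Finset.card_erase_of_mem (Finset.mem_univ _), Finset.card_univ] at hc
  omega

section HalfOdd

variable {P : F → Prop} (hP0 : ∀ θ, P θ → θ ≠ 0)
  (hcard : Fintype.card F + 1 ≤ 2 * (@Finset.filter F P (Classical.decPred _) Finset.univ).card)
include hP0 hcard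

theorem half_exists_sum {A B : F} (hA : A ≠ 0) (hB : B ≠ 0) (s : F) :
    ∃ s₁ s₂, P (s₁ / A) ∧ P (s₂ / B) ∧ s₁ + s₂ = s := by
  classical
  set T := @Finset.filter F P (Classical.decPred _) Finset.univ with hT
  have hmem : ∀ θ, θ ∈ T ↔ P θ := by
    intro θ
    simp [hT]
  have hmulinj : ∀ C : F, C ≠ 0 → Function.Injective (fun θ : F => C * θ) := fun C hC a b hab =>
    mul_left_cancel₀ hC hab
  set X := T.image (fun θ => A * θ) with hX
  set Y₀ := T.image (fun θ => B * θ) with hY₀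
  set Y := Y₀.image (fun z => s - z) with hY
  have hXc : X.card = T.card := by
    rw [hX, Finset.card_image_of_injective _ (hmulinj A hA)]
  have hYc : Y.card = T.card := by
    rw [hY, Finset.card_image_of_injective _ (fun a b hab => sub_right_injective hab), hY₀,
      Finset.card_image_of_injective _ (hmulinj B hB)]
  have hlt : (Finset.univ : Finset F).card < X.card + Y.card := by
    rw [hXc, hYc, Finset.card_univ]
    omega
  obtain ⟨θ, hθ⟩ := Finset.inter_nonempty_of_card_lt_card_add_card (Finset.subset_univ _) (Finset.subset_univ _) hlt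
  obtain ⟨h4, h5⟩ := Finset.mem_inter.1 hθ
  obtain ⟨z, hz, rfl⟩ := Finset.mem_image.1 h5
  refine ⟨s - z, z, ?_, ?_, by ring⟩
  · obtain ⟨a, ha, h0⟩ := Finset.mem_image.1 h4
    rw [← h0, mul_div_cancel_left₀ _ hA]
    exact (hmem a).1 ha
  · obtain ⟨a, ha, h0⟩ := Finset.mem_image.1 hz
    rw [← h0, mul_div_cancel_left₀ _ hB]
    exact (hmem a).1 ha

theorem half_classes (h2 : (2 : F) ≠ 0) : (∃ θ, P θ ∧ IsSquare θ) ∧ (∃ θ, P θ ∧ ¬ IsSquare θ) := by
  classical
  set T := @Finset.filter F P (Classical.decPred _) Finset.univ with hT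
  have hmem : ∀ θ, θ ∈ T ↔ P θ := by
    intro θ
    simp [hT]
  obtain ⟨h1, h3⟩ := card_sq (F := F) h2
  constructor
  · by_contra hcon
    push Not at hcon
    have hsub : T ⊆ @Finset.filter F (fun z => z ≠ 0 ∧ ¬ IsSquare z) (Classical.decPred _) Finset.univ := by
      intro θ hθ
      simp only [Finset.mem_filter, Finset.mem_univ, true_and]
      exact ⟨hP0 θ ((hmem θ).1 hθ), hcon θ ((hmem θ).1 hθ)⟩
    have := Finset.card_le_card hsub
    omega
  · by_contra hcon
    push Not at hcon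
    have hsub : T ⊆ @Finset.filter F (fun z => z ≠ 0 ∧ IsSquare z) (Classical.decPred _) Finset.univ := by
      intro θ hθ
      simp only [Finset.mem_filter, Finset.mem_univ, true_and]
      exact ⟨hP0 θ ((hmem θ).1 hθ), hcon θ ((hmem θ).1 hθ)⟩
    have := Finset.card_le_card hsub
    omega

end HalfOdd

/-- A good ratio. -/
theorem exists_good_ratio {P : F → Prop} (hP0 : ∀ θ, P θ → θ ≠ 0)
    (hcard : Fintype.card F ≤ 2 * (@Finset.filter F P (Classical.decPred _) Finset.univ).card)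
    (hodd : (2 : F) ≠ 0 → Fintype.card F + 1 ≤ 2 * (@Finset.filter F P (Classical.decPred _) Finset.univ).card)
    (hq : Fintype.card F ≠ 3) : ∃ θ, P θ ∧ (2 - θ) * (4 - θ) ≠ 0 := by
  classical
  set T := @Finset.filter F P (Classical.decPred _) Finset.univ with hT
  have hmem : ∀ θ, θ ∈ T ↔ P θ := by
    intro θ
    simp [hT]
  by_cases h2 : (2 : F) = 0
  · have hpos := Fintype.card_pos (α := F)
    obtain ⟨θ, hθ⟩ : T.Nonempty := by
      rw [Finset.nonempty_iff_ne_empty]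
      intro h
      rw [h] at hcard
      simp at hcard
    have hP := (hmem θ).1 hθ
    refine ⟨θ, hP, ?_⟩
    have h4 : (4 : F) = 2 * 2 := by norm_num
    rw [h4, h2]
    have h0 := hP0 θ hP
    simpa using h0
  · have hc := hodd h2
    have ho := odd_card_of_two h2
    have h1 := Fintype.one_lt_card (α := F)
    have h5 : 5 ≤ Fintype.card F := by omega
    have h3 : 3 ≤ T.card := by omega
    have hlt : ({2, 4} : Finset F).card < T.card := lt_of_le_of_lt Finset.card_le_two (by omega)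
    obtain ⟨θ, hθ, hn⟩ := Finset.exists_mem_notMem_of_card_lt_card hlt
    simp only [Finset.mem_insert, Finset.mem_singleton, not_or] at hn
    refine ⟨θ, (hmem θ).1 hθ, mul_ne_zero (sub_ne_zero.2 (Ne.symm hn.1)) (sub_ne_zero.2 (Ne.symm hn.2))⟩

/-- The sign of an element. -/
noncomputable def eps (z : F) : ℤˣ := @ite _ (IsSquare z) (Classical.propDecidable _) 1 (-1)

theorem eps_of_sq {z : F} (h : IsSquare z) : eps z = 1 := by
  unfold eps
  rw [if_pos h]

theorem eps_of_not_sq {z : F} (h : ¬ IsSquare z) : eps z = -1 := by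
  unfold eps
  rw [if_neg h]

theorem units_sq (u : ℤˣ) : u * u = 1 := Int.units_mul_self u

theorem hom_const (h2 : (2 : F) ≠ 0) (σ₁ σ₂ σ₃ : F → ℤˣ) (c : F) (H : ∀ x y, σ₁ x * σ₂ y * σ₃ (c - x - y) = -1) :
    ∀ x, σ₁ x = σ₁ 0 := by
  have h1 : ∀ x y, σ₁ x * σ₂ y = σ₁ (x + y) * σ₂ 0 := by
    intro x y
    have h3 := H x y
    have h4 := H (x + y) 0
    have e : c - (x + y) - 0 = c - x - y := by ring
    rw [e] at h4
    exact mul_right_cancel (h3.trans h4.symm)
  have h3 : ∀ y, σ₂ y = σ₁ y * σ₁ 0 * σ₂ 0 := by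
    intro y
    have h4 := h1 0 y
    rw [zero_add] at h4
    have h5 : σ₁ 0 * (σ₁ 0 * σ₂ y) = σ₁ 0 * (σ₁ y * σ₂ 0) := by rw [h4]
    rw [← mul_assoc, units_sq, one_mul] at h5
    rw [h5]
    simp only [mul_assoc, mul_left_comm, mul_comm]
  have h4 : ∀ x y, σ₁ (x + y) = σ₁ x * σ₁ y * σ₁ 0 := by
    intro x y
    have h5 := h1 x y
    rw [h3 y] at h5
    have h6 : σ₁ x * σ₁ y * σ₁ 0 * σ₂ 0 = σ₁ (x + y) * σ₂ 0 := by
      rw [← h5]
      simp only [mul_assoc]
    exact (mul_right_cancel h6).symm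
  intro x
  have hx : x = x * 2⁻¹ + x * 2⁻¹ := by
    field_simp
    ring
  have h5 := h4 (x * 2⁻¹) (x * 2⁻¹)
  rw [← hx, units_sq, one_mul] at h5
  exact h5

/-- The selection of six norms with even sign. -/
theorem sign_select (h2 : (2 : F) ≠ 0) {P : F → Prop} (hP0 : ∀ θ, P θ → θ ≠ 0)
    (hsum : ∀ A B : F, A ≠ 0 → B ≠ 0 → ∀ x, ∃ s s', P (s / A) ∧ P (s' / B) ∧ s + s' = x)
    (hcl : (∃ θ, P θ ∧ IsSquare θ) ∧ (∃ θ, P θ ∧ ¬ IsSquare θ))
    {A₁ A₂ A₃ A₄ A₅ A₆ : F} (h₁ : A₁ ≠ 0) (h₂ : A₂ ≠ 0) (h₃ : A₃ ≠ 0) (h₄ : A₄ ≠ 0) (h₅ : A₅ ≠ 0) (h₆ : A₆ ≠ 0)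
    (c : F) : ∃ s₁ s₂ s₃ s₄ s₅ s₆, P (s₁ / A₁) ∧ P (s₂ / A₂) ∧ P (s₃ / A₃) ∧ P (s₄ / A₄) ∧ P (s₅ / A₅) ∧ P (s₆ / A₆) ∧
      s₁ + s₂ + (s₃ + s₄) + (s₅ + s₆) = c ∧ eps (s₁ * s₂) * eps (s₃ * s₄) * eps (s₅ * s₆) = 1 := by
  classical
  let Rep : F → F → F → ℤˣ → Prop := fun A B x e => ∃ s s', P (s / A) ∧ P (s' / B) ∧ s + s' = x ∧ eps (s * s') = e
  have hrep : ∀ A B : F, A ≠ 0 → B ≠ 0 → ∀ x, ∃ e, Rep A B x e := by
    intro A B hA hB x
    obtain ⟨s, s', hs, hs', hx⟩ := hsum A B hA hB x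
    exact ⟨_, s, s', hs, hs', hx, rfl⟩
  obtain ⟨⟨θs, hθs, hsq⟩, ⟨θn, hθn, hnsq⟩⟩ := hcl
  -- two values of the first pair with different signs
  obtain ⟨xp, xm, hne, hp, hm⟩ : ∃ xp xm, xp ≠ xm ∧ Rep A₁ A₂ xp 1 ∧ Rep A₁ A₂ xm (-1) := by
    set s := A₁ * θs with hs
    have hs0 : s ≠ 0 := mul_ne_zero h₁ (hP0 _ hθs)
    have hsP : P (s / A₁) := by
      rw [hs, mul_div_cancel_left₀ _ h₁]
      exact hθs
    have hP1 : P (A₂ * θs / A₂) := by
      rw [mul_div_cancel_left₀ _ h₂]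
      exact hθs
    have hP2 : P (A₂ * θn / A₂) := by
      rw [mul_div_cancel_left₀ _ h₂]
      exact hθn
    have hθne : θs ≠ θn := by
      rintro rfl
      exact hnsq hsq
    have hne : s + A₂ * θs ≠ s + A₂ * θn := by
      intro h
      exact hθne (mul_left_cancel₀ h₂ (add_left_cancel h))
    have e1 : s * (A₂ * θs) = s * A₂ * θs := by ring
    have e2 : s * (A₂ * θn) = s * A₂ * θn := by ring
    have hz0 : s * A₂ ≠ 0 := mul_ne_zero hs0 h₂
    have ht1 : IsSquare (s * A₂ * θs) ↔ IsSquare (s * A₂) := by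
      rw [isSquare_mul_iff h2 hz0 (hP0 _ hθs)]
      tauto
    have ht2 : IsSquare (s * A₂ * θn) ↔ ¬ IsSquare (s * A₂) := by
      rw [isSquare_mul_iff h2 hz0 (hP0 _ hθn)]
      tauto
    by_cases hz : IsSquare (s * A₂)
    · refine ⟨_, _, hne, ⟨s, A₂ * θs, hsP, hP1, rfl, ?_⟩, ⟨s, A₂ * θn, hsP, hP2, rfl, ?_⟩⟩
      · rw [e1]
        exact eps_of_sq (ht1.2 hz)
      · rw [e2]
        exact eps_of_not_sq (fun h => (ht2.1 h) hz)
    · refine ⟨_, _, hne.symm, ⟨s, A₂ * θn, hsP, hP2, rfl, ?_⟩, ⟨s, A₂ * θs, hsP, hP1, rfl, ?_⟩⟩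
      · rw [e2]
        exact eps_of_sq (ht2.2 hz)
      · rw [e1]
        exact eps_of_not_sq (fun h => hz (ht1.1 h))
  choose σ₁' hσ₁' using hrep A₁ A₂ h₁ h₂
  choose σ₂ hσ₂ using hrep A₃ A₄ h₃ h₄
  choose σ₃ hσ₃ using hrep A₅ A₆ h₅ h₆
  let σ₁ : F → ℤˣ := fun x => if x = xp then 1 else if x = xm then -1 else σ₁' x
  have hσ₁ : ∀ x, Rep A₁ A₂ x (σ₁ x) := by
    intro x
    by_cases h3 : x = xp
    · simp only [σ₁, if_pos h3]
      rw [h3]
      exact hp
    · by_cases h4 : x = xm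
      · simp only [σ₁, if_neg h3, if_pos h4]
        rw [h4]
        exact hm
      · simp only [σ₁, if_neg h3, if_neg h4]
        exact hσ₁' x
  by_cases H : ∀ x y, σ₁ x * σ₂ y * σ₃ (c - x - y) = -1
  · exfalso
    have h3 := hom_const h2 σ₁ σ₂ σ₃ c H
    have h4 : σ₁ xp = 1 := by simp [σ₁]
    have h5 : σ₁ xm = -1 := by simp [σ₁, hne.symm]
    have h6 := (h3 xp).trans (h3 xm).symm
    rw [h4, h5] at h6
    exact absurd h6 (by decide)
  · push Not at H
    obtain ⟨x, y, hxy⟩ := H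
    have h7 : σ₁ x * σ₂ y * σ₃ (c - x - y) = 1 := (Int.units_eq_one_or _).resolve_right hxy
    obtain ⟨s₁, s₂, a1, a2, a3, a4⟩ := hσ₁ x
    obtain ⟨s₃, s₄, b1, b2, b3, b4⟩ := hσ₂ y
    obtain ⟨s₅, s₆, c1, c2, c3, c4⟩ := hσ₃ (c - x - y)
    refine ⟨s₁, s₂, s₃, s₄, s₅, s₆, a1, a2, b1, b2, c1, c2, ?_, ?_⟩
    · rw [a3, b3, c3]
      ring
    · rw [a4, b4, c4]
      exact h7

end Cfsg.Agent.Lib.Classical.Decomp.Ev
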