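/-
Anisotropic planes: the data of the closure argument, orbits of the stabiliser, and the basic step.
-/
import Mathlib
import Cfsg.Agent.Lib.Classical.Decomp.Ev.Plane
import Cfsg.Agent.Lib.Classical.Decomp.Ev.PlaneField

set_option autoImplicit false
set_option linter.unusedSectionVars false
set_option linter.unusedSimpArgs false
set_option linter.unusedVariables false

namespace Cfsg.Agent.Lib.Classical.Decomp.Ev

open Matrix QuadraticMap Module Cfsg.Geo
open Cfsg.Agent.Lib.Classical.Decomp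
open Cfsg.Agent.Lib.Classical.Orth.Basic
open Cfsg.Agent.Lib.Classical.Orth.Spinor

variable {ι : Type} [Fintype ι] [DecidableEq ι] {F : Type*} [Field F] [Fintype F]
variable {Q : QuadraticForm F (ι → F)}

set_option quotPrecheck false in
local notation "𝔣" => polar (⇑Q)
set_option quotPrecheck false in
local notation "𝕀" => ↥(Cfsg.isometryGroup F (⇑Q))

variable {t : ℕ} {D : Fin t → Submodule F (ι → F)} {π : Fin t → (ι → F) →ₗ[F] (ι → F)}
variable {R : Set (ι → F)} {c : F}

/-- The data for planes. -/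
structure PS (Q : QuadraticForm F (ι → F)) {t : ℕ} (D : Fin t → Submodule F (ι → F))
    (π : Fin t → (ι → F) →ₗ[F] (ι → F)) (R : Set (ι → F)) (c : F) : Prop extends Sys Q 2 D π R c where
  ht : 7 ≤ t
  haniso : ∀ i x, x ∈ D i → x ≠ 0 → Q x ≠ 0
  iso : ∀ i j, AreIsometricFor (⇑Q) (D i) (D j)
  hn : Fintype.card ι ≠ 4
  hq : Fintype.card F ≠ 3

/-- The corrections are available. -/
def Cor (π : Fin t → (ι → F) →ₗ[F] (ι → F)) (v : ι → F) : Prop := (2 : F) = 0 ∨ ∃ j, π j v = 0

/-- The support of a vector. -/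
noncomputable def supp (π : Fin t → (ι → F) →ₗ[F] (ι → F)) (v : ι → F) : Finset (Fin t) :=
  @Finset.filter _ (fun l => π l v ≠ 0) (Classical.decPred _) Finset.univ

omit [Fintype F] in
theorem mem_supp {v : ι → F} {l : Fin t} : l ∈ supp π v ↔ π l v ≠ 0 := by
  simp [supp]

theorem pi_sum {k : ℕ} (dec : Dec Q k D π) (v : Fin t → ι → F) (hv : ∀ l, v l ∈ D l) (l : Fin t) :
    π l (∑ m, v m) = v l := by
  rw [map_sum, Finset.sum_eq_single l]
  · exact dec.idem l _ (hv l)
  · intro j _ hj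
    exact dec.zero l j _ (Ne.symm hj) (hv j)
  · simp

/-- The reflection in the difference of two vectors of equal norm. -/
theorem refl_swap {x y : ι → F} (hxy : Q x = Q y) (hw : Q (x - y) ≠ 0) : act (reflectionIso Q (x - y) hw) x = y := by
  have h1 : 𝔣 (x - y) x = Q (x - y) := by
    rw [polar_sub_left, polar_self_eq, Q_sub, ← hxy, polar_comm (⇑Q) y x]
    ring
  rw [reflectionIso_act, h1, inv_mul_cancel₀ hw, one_smul]
  abel

namespace PS

variable (S : PS Q D π R c)
include S

theorem dim2 (l : Fin t) : 2 ≤ finrank F (D l) := by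
  rw [S.dec.dim]

/-- Orbits of the stabiliser on vectors are given by the norms of components. -/
theorem orbit {a b : ι → F} (h : ∀ l, Q (π l a) = Q (π l b)) :
    ∃ g : 𝕀, (g : GL ι F) ∈ decompositionStabilizer D ∧ act g a = b := by
  classical
  have key : ∀ s : Finset (Fin t), ∃ g : 𝕀, (g : GL ι F) ∈ decompositionStabilizer D ∧
      ∀ l, π l (act g a) = if l ∈ s then π l b else π l a := by
    intro s
    induction s using Finset.induction_on with
    | empty =>
      exact ⟨1, (decompositionStabilizer D).one_mem, fun l => by simp [act_one]⟩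
    | insert l s hl ih =>
      obtain ⟨g, hg, hgp⟩ := ih
      set z := act g a with hz
      have hzl : π l z = π l a := by
        rw [hgp, if_neg hl]
      by_cases e : π l a = π l b
      · refine ⟨g, hg, fun m => ?_⟩
        by_cases hm : m = l
        · subst hm
          rw [if_pos (Finset.mem_insert_self _ _), hzl, e]
        · rw [hgp]
          simp only [Finset.mem_insert, hm, false_or]
      · set w := π l a - π l b with hw
        have hwE : w ∈ D l := (D l).sub_mem (S.dec.mem l a) (S.dec.mem l b)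
        have hw0 : Q w ≠ 0 := S.haniso l w hwE (sub_ne_zero.2 e)
        refine ⟨reflectionIso Q w hw0 * g, (decompositionStabilizer D).mul_mem (refl_stab S.dec hwE hw0) hg, fun m => ?_⟩
        have hact : act (reflectionIso Q w hw0 * g) a = z - w := by
          rw [act_mul, ← hz, reflectionIso_act, S.dec.polar_comp hwE, hzl]
          have h1 : 𝔣 w (π l a) = Q w := by
            rw [hw, polar_sub_left, polar_self_eq, Q_sub, ← h l, polar_comm (⇑Q) (π l b) (π l a)]
            ring
          rw [h1, inv_mul_cancel₀ hw0, one_smul]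
        rw [hact, map_sub]
        by_cases hm : m = l
        · subst hm
          rw [if_pos (Finset.mem_insert_self _ _), hzl, S.dec.idem m w hwE, hw]
          abel
        · rw [S.dec.zero m l w hm hwE, sub_zero, hgp]
          simp only [Finset.mem_insert, hm, false_or]
  obtain ⟨g, hg, hgp⟩ := key Finset.univ
  refine ⟨g, hg, S.dec.ext fun l => ?_⟩
  rw [hgp, if_pos (Finset.mem_univ _)]

theorem hasCorr {v : ι → F} (hv : Cor π v) (hQv : Q v ≠ 0) : HasCorr Q D v := by
  by_cases h2 : (2 : F) = 0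
  · exact corr_of_nonsing_comp S.dec S.hQ h2 S.hn hQv
  · obtain ⟨j, hj⟩ := hv.resolve_left h2
    exact corr_of_zero S.dec S.hQ h2 le_rfl hj

theorem of_norms {a b : ι → F} (ha : a ∈ R) (h : ∀ l, Q (π l a) = Q (π l b)) (hb : Cor π b) : b ∈ R := by
  obtain ⟨g, hg, rfl⟩ := S.orbit h
  refine S.toSys.move g hg ha (S.hasCorr hb ?_)
  rw [Q_act]
  exact S.toSys.ne_zero_of_mem ha

/-- A vector of given ratio of norm moves a vector of given norm. -/
theorem th_back {l : Fin t} {x : ι → F} {A : F} (hx : x ∈ D l) (hA : A ≠ 0) (hth : Th Q D (Q x / A)) :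
    ∃ a ∈ D l, Q a = A ∧ Q (a + x) = A := by
  obtain ⟨a₁, ha₁, hQa₁⟩ := univ_all (S.dec.nd l) (S.dim2 l) A
  obtain ⟨y₀, hy₀, h1, h3⟩ := hth.2 l a₁ ha₁ (by rw [hQa₁]; exact hA)
  rw [hQa₁] at h1 h3
  have hQy₀ : Q y₀ = Q x := by
    rw [h1]
    field_simp
  by_cases e : y₀ = x
  · subst e
    exact ⟨a₁, ha₁, hQa₁, h3⟩
  · set w := y₀ - x with hw
    have hwE : w ∈ D l := (D l).sub_mem hy₀ hx
    have hw0 : Q w ≠ 0 := S.haniso l w hwE (sub_ne_zero.2 e)
    have hsw : act (reflectionIso Q w hw0) y₀ = x := refl_swap hQy₀ hw0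
    refine ⟨act (reflectionIso Q w hw0) a₁, ?_, by rw [Q_act]; exact hQa₁, ?_⟩
    · rw [reflectionIso_act]
      exact (D l).sub_mem ha₁ ((D l).smul_mem _ hwE)
    · rw [← hsw, ← act_add, Q_act]
      exact h3

/-- The basic step. -/
theorem step_down {a y : ι → F} (ha : a ∈ R) (hCa : Cor π a) (hQy : Q y = c)
    (hy : ∀ l, π l y = 0 ∨ (Q (π l a) ≠ 0 ∧ Th Q D (Q (π l y) / Q (π l a)))) : y ∈ R := by
  classical
  have hex : ∀ l, ∃ v ∈ D l, Q v = Q (π l a) ∧ Q (v + π l y) = Q (π l a) := by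
    intro l
    rcases hy l with h | ⟨h1, h3⟩
    · exact ⟨π l a, S.dec.mem l a, rfl, by rw [h, add_zero]⟩
    · obtain ⟨v, hv, h4, h5⟩ := S.th_back (S.dec.mem l y) h1 h3
      exact ⟨v, hv, h4, h5⟩
  choose v hv hv1 hv2 using hex
  set a₀ := ∑ m, v m with ha₀
  have hπ₀ : ∀ l, π l a₀ = v l := pi_sum S.dec v hv
  set b := a₀ + y with hb
  have hπb : ∀ l, π l b = v l + π l y := by
    intro l
    rw [hb, map_add, hπ₀]
  have hvz : ∀ j, π j a = 0 → v j = 0 := by
    intro j hj
    by_contra hne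
    apply S.haniso j _ (hv j) hne
    rw [hv1, hj, QuadraticMap.map_zero]
  have hCa₀ : Cor π a₀ := by
    rcases hCa with h | ⟨j, hj⟩
    · exact Or.inl h
    · exact Or.inr ⟨j, by rw [hπ₀, hvz j hj]⟩
  have hCb : Cor π b := by
    rcases hCa with h | ⟨j, hj⟩
    · exact Or.inl h
    · refine Or.inr ⟨j, ?_⟩
      rw [hπb, hvz j hj, zero_add]
      rcases hy j with h | ⟨h1, -⟩
      · exact h
      · exact absurd (by rw [hj, QuadraticMap.map_zero]) h1
  have ha₀R : a₀ ∈ R := S.of_norms ha (fun l => by rw [hπ₀, hv1]) hCa₀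
  have hbR : b ∈ R := S.of_norms ha (fun l => by rw [hπb, hv2]) hCb
  have hQa₀ : Q a₀ = c := S.norm _ ha₀R
  have h0 : Q a₀ ≠ 0 := by rw [hQa₀]; exact S.hc
  have hpolar : 𝔣 a₀ y = -c := by
    rw [S.dec.polar_sum]
    have : ∀ l, 𝔣 (π l a₀) (π l y) = -Q (π l y) := by
      intro l
      rw [hπ₀]
      have h1 := hv2 l
      have h3 := hv1 l
      simp only [polar] at *
      rw [h1, h3]
      ring
    rw [Finset.sum_congr rfl (fun l _ => this l), Finset.sum_neg_distrib, ← S.dec.Q_sum y, hQy]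
  have hres := S.refl a₀ ha₀R b hbR h0
  have h3 : 𝔣 a₀ b = c := by
    rw [hb, polar_add_right, polar_self_eq, hQa₀, hpolar]
    ring
  rw [reflectionIso_act, h3, hQa₀, inv_mul_cancel₀ S.hc, one_smul, hb, add_sub_cancel_left] at hres
  exact hres

theorem perm_iso (σ : Equiv.Perm (Fin t)) : ∃ h : 𝕀, (h : GL ι F) ∈ decompositionStabilizer D ∧
    ∀ l x, π (σ l) (act h x) = act h (π l x) := by
  obtain ⟨h, h1, -⟩ := exists_perm_iso S.dec S.hQ S.iso σ
  refine ⟨h, mem_stab_of_perm S.dec _ σ h1, fun l x => ?_⟩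
  conv_lhs => rw [← S.dec.sum x]
  change π (σ l) (Matrix.toLin' ((h : GL ι F) : Matrix ι ι F) (∑ m, π m x)) = _
  rw [map_sum, map_sum, Finset.sum_eq_single l]
  · exact S.dec.idem _ _ (h1 l _ (S.dec.mem l x))
  · intro j _ hj
    exact S.dec.zero _ _ _ (fun h => hj (σ.injective h).symm) (h1 j _ (S.dec.mem j x))
  · simp

end PS

theorem exists_perm_fix {t : ℕ} (i : Fin t) (A B : Finset (Fin t)) (hiA : i ∉ A) (hiB : i ∉ B) (hc : A.card = B.card) :
    ∃ σ : Equiv.Perm (Fin t), σ i = i ∧ ∀ x ∈ A, σ x ∈ B := by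
  classical
  let e := Finset.equivOfCardEq hc
  let σ₀ : Equiv.Perm (Fin t) := e.extendSubtype
  have h₀ : ∀ x ∈ A, σ₀ x ∈ B := fun x hx => e.extendSubtype_mem x hx
  refine ⟨Equiv.swap (σ₀ i) i * σ₀, ?_, ?_⟩
  · rw [Equiv.Perm.mul_apply, Equiv.swap_apply_left]
  · intro x hx
    rw [Equiv.Perm.mul_apply, Equiv.swap_apply_of_ne_of_ne]
    · exact h₀ x hx
    · intro h
      have := σ₀.injective h
      subst this
      exact hiA hx
    · intro h
      apply hiB
      rw [← h]
      exact h₀ x hx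

end Cfsg.Agent.Lib.Classical.Decomp.Ev
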