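/-
Anisotropic planes: growing the support of a vector of `R`.
-/
import Mathlib
import Cfsg.Agent.Lib.Classical.Decomp.Ev.PlaneA

set_option autoImplicit false
set_option linter.unusedSectionVars false
set_option linter.unusedSimpArgs false
set_option linter.unusedVariables false

namespace Cfsg.Agent.Lib.Classical.Decomp.Ev

open Matrix QuadraticMap Module Cfsg.Geo
open Cfsg.Agent.Lib.Classical.Decomp
open Cfsg.Agent.Lib.Classical.Orth.Basic
open Cfsg.Agent.Lib.Classical.Orth.Spinor

variable {ι : Type} [Fintype ι] [DecidableEq ι] {F : Type*} [Field F] [Fintype F]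
variable {Q : QuadraticForm F (ι → F)}

set_option quotPrecheck false in
local notation "𝔣" => polar (⇑Q)
set_option quotPrecheck false in
local notation "𝕀" => ↥(Cfsg.isometryGroup F (⇑Q))

variable {t : ℕ} {D : Fin t → Submodule F (ι → F)} {π : Fin t → (ι → F) →ₗ[F] (ι → F)}
variable {R : Set (ι → F)} {c : F}

namespace PS

variable (S : PS Q D π R c)
include S

theorem grow_step (hgood : ∃ θ, Th Q D θ ∧ (2 - θ) * (4 - θ) ≠ 0) {a : ι → F} (ha : a ∈ R)
    (h2c : 2 ≤ (supp π a).card) (h4 : (supp π a).card ≤ 4) :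
    ∃ a' ∈ R, (supp π a).card + 1 ≤ (supp π a').card := by
  classical
  have ht := S.ht
  set I := supp π a with hI
  obtain ⟨i, hi⟩ : I.Nonempty := Finset.card_pos.1 (by omega)
  set I' := I.erase i with hI'def
  have hI' : I'.card = I.card - 1 := Finset.card_erase_of_mem hi
  have hc : I'.card ≤ (Iᶜ).card := by
    rw [Finset.card_compl, Fintype.card_fin]
    omega
  obtain ⟨J, hJ, hJc⟩ := Finset.exists_subset_card_eq hc
  have hiJ : i ∉ J := fun h => (Finset.mem_compl.1 (hJ h)) hi
  obtain ⟨σ, hσi, hσ⟩ := exists_perm_fix i I' J (Finset.notMem_erase i I) hiJ hJc.symm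
  have hσI' : ∀ x ∈ I', σ x ∉ I := fun x hx => Finset.mem_compl.1 (hJ (hσ x hx))
  obtain ⟨h₁, hst, hπ⟩ := S.perm_iso σ
  set a₂ := act h₁ a with ha₂
  have hzero : ∀ m, m ∉ I.image σ → π m a₂ = 0 := by
    intro m hm
    have hl : σ.symm m ∉ I := by
      intro h
      apply hm
      exact Finset.mem_image.2 ⟨_, h, by simp⟩
    have hz : π (σ.symm m) a = 0 := by
      by_contra h
      exact hl (mem_supp.2 h)
    have := hπ (σ.symm m) a
    rw [Equiv.apply_symm_apply, hz, act_zero] at this
    exact this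
  have hnz : ∀ l ∈ I, π (σ l) a₂ ≠ 0 := by
    intro l hl h
    rw [ha₂, hπ] at h
    have h3 := congrArg (act h₁⁻¹) h
    rw [act_inv_act, act_zero] at h3
    exact (mem_supp.1 hl) h3
  obtain ⟨j, hj⟩ : ∃ j, j ∉ I.image σ := by
    by_contra hcon
    push Not at hcon
    have h1 : (Finset.univ : Finset (Fin t)) ⊆ I.image σ := fun l _ => hcon l
    have h3 := Finset.card_le_card h1
    have h5 := Finset.card_image_le (s := I) (f := σ)
    rw [Finset.card_univ, Fintype.card_fin] at h3
    omega
  have hQa₂ : Q a₂ ≠ 0 := by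
    rw [ha₂, Q_act]
    exact S.toSys.ne_zero_of_mem ha
  have hCa₂ : Cor π a₂ := Or.inr ⟨j, hzero j hj⟩
  have ha₂R : a₂ ∈ R := S.toSys.move h₁ hst ha (S.hasCorr hCa₂ hQa₂)
  set x₀ := π i a with hx₀
  have hx₀E : x₀ ∈ D i := S.dec.mem i a
  have hA : Q x₀ ≠ 0 := S.haniso i _ hx₀E (mem_supp.1 hi)
  set A := Q x₀ with hAdef
  obtain ⟨θ, hθ, hgoodθ⟩ := hgood
  have hθ0 : θ ≠ 0 := hθ.1
  obtain ⟨y', hy', hy1, hy2⟩ := hθ.2 i x₀ hx₀E hA
  rw [← hAdef] at hy1 hy2
  set b := a₂ - π i a₂ + (x₀ + y') with hb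
  have hsumE : x₀ + y' ∈ D i := (D i).add_mem hx₀E hy'
  have hπb : ∀ m, m ≠ i → π m b = π m a₂ := by
    intro m hm
    rw [hb, map_add, map_sub, S.dec.pi_pi_ne hm, sub_zero, S.dec.zero m i _ hm hsumE, add_zero]
  have hπbi : π i b = x₀ + y' := by
    rw [hb, map_add, map_sub, S.dec.pi_pi, sub_self, zero_add, S.dec.idem i _ hsumE]
  have hπa₂i : π i a₂ = act h₁ x₀ := by
    have := hπ i a
    rwa [hσi] at this
  have hji : j ≠ i := by
    rintro rfl
    apply hj
    exact Finset.mem_image.2 ⟨_, hi, hσi⟩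
  have hbR : b ∈ R := by
    refine S.of_norms ha₂R (fun m => ?_) (Or.inr ⟨j, ?_⟩)
    · by_cases hm : m = i
      · subst hm
        rw [hπbi, hπa₂i, Q_act, hy2]
      · rw [hπb m hm]
    · rw [hπb j hji]
      exact hzero j hj
  have hb0 : ∀ m ∈ I, m ≠ i → π m a₂ = 0 := by
    intro m hmI hm
    apply hzero
    intro h
    obtain ⟨l, hl, rfl⟩ := Finset.mem_image.1 h
    by_cases hli : l = i
    · subst hli
      exact hm hσi
    · exact hσI' l (Finset.mem_erase.2 ⟨hli, hl⟩) hmI
  have hfab : 𝔣 a b = A * (2 - θ) := by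
    rw [S.dec.polar_sum, Finset.sum_eq_single i]
    · rw [hπbi, polar_add_right, polar_self_eq, ← hx₀, ← hAdef]
      have h1 : 𝔣 x₀ y' = -(A * θ) := by
        simp only [polar]
        rw [hy2, ← hAdef, hy1]
        ring
      rw [h1]
      ring
    · intro l _ hl
      by_cases hlI : l ∈ I
      · rw [hπb l hl, hb0 l hlI hl, polar_zero_right]
      · have : π l a = 0 := by
          by_contra h
          exact hlI (mem_supp.2 h)
        rw [this, polar_zero_left]
    · simp
  have hQa : Q a = c := S.norm a ha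
  have hQa0 : Q a ≠ 0 := S.toSys.ne_zero_of_mem ha
  have h2θ : 2 - θ ≠ 0 := left_ne_zero_of_mul hgoodθ
  have h4θ : 4 - θ ≠ 0 := right_ne_zero_of_mul hgoodθ
  set κ := c⁻¹ * (A * (2 - θ)) with hκ
  have hκ0 : κ ≠ 0 := mul_ne_zero (inv_ne_zero S.hc) (mul_ne_zero hA h2θ)
  have hres := S.refl a ha b hbR hQa0
  have hact : act (reflectionIso Q a hQa0) b = b - κ • a := by
    rw [reflectionIso_act, hfab, hQa]
  rw [hact] at hres
  refine ⟨_, hres, ?_⟩
  have hsubs : I ∪ I'.image σ ⊆ supp π (b - κ • a) := by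
    intro m hm
    rw [mem_supp, map_sub, map_smul]
    rcases Finset.mem_union.1 hm with hm | hm
    · by_cases hmi : m = i
      · subst hmi
        rw [hπbi, ← hx₀]
        intro h0
        have e : y' = (κ - 1) • x₀ := by
          rw [sub_smul, one_smul]
          have := sub_eq_zero.1 h0
          rw [← this]
          abel
        have e2 : x₀ + y' = κ • x₀ := by
          rw [← sub_eq_zero]
          exact h0
        have h5 : κ * κ = 1 := by
          rw [e2, Q_smul, ← hAdef] at hy2
          have : A * (κ * κ) = A * 1 := by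
            linear_combination hy2
          exact mul_left_cancel₀ hA this
        have h6 : (κ - 1) * (κ - 1) = θ := by
          rw [e, Q_smul, ← hAdef] at hy1
          have : A * ((κ - 1) * (κ - 1)) = A * θ := by
            linear_combination hy1
          exact mul_left_cancel₀ hA this
        have h7 : (κ - 1) * (κ + 1) = 0 := by linear_combination h5
        rcases mul_eq_zero.1 h7 with h8 | h8
        · rw [h8, zero_mul] at h6
          exact hθ0 h6.symm
        · apply h4θ
          have h9 : κ = -1 := by linear_combination h8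
          rw [← h6, h9]
          ring
      · rw [hπb m hmi, hb0 m hm hmi, zero_sub, neg_ne_zero]
        exact smul_ne_zero hκ0 (mem_supp.1 hm)
    · obtain ⟨l, hl, rfl⟩ := Finset.mem_image.1 hm
      have hne : σ l ≠ i := by
        intro h
        have h3 : σ l = σ i := by rw [h, hσi]
        have h5 := σ.injective h3
        subst h5
        exact Finset.notMem_erase _ _ hl
      have hz : π (σ l) a = 0 := by
        by_contra h
        exact hσI' l hl (mem_supp.2 h)
      rw [hπb _ hne, hz, smul_zero, sub_zero]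
      exact hnz l (Finset.mem_of_mem_erase hl)
  have hcard := Finset.card_le_card hsubs
  have hdisj : Disjoint I (I'.image σ) := by
    rw [Finset.disjoint_left]
    intro m h1 h3
    obtain ⟨l, hl, rfl⟩ := Finset.mem_image.1 h3
    exact hσI' l hl h1
  rw [Finset.card_union_of_disjoint hdisj, Finset.card_image_of_injective _ σ.injective] at hcard
  omega

theorem grow (hgood : ∃ θ, Th Q D θ ∧ (2 - θ) * (4 - θ) ≠ 0) (N : ℕ) :
    ∀ a, a ∈ R → 2 ≤ (supp π a).card → 5 ≤ (supp π a).card + N → ∃ a' ∈ R, 5 ≤ (supp π a').card := by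
  induction N with
  | zero =>
    intro a ha _ h
    exact ⟨a, ha, by omega⟩
  | succ N ih =>
    intro a ha h2 h5
    by_cases h : 5 ≤ (supp π a).card
    · exact ⟨a, ha, h⟩
    · obtain ⟨a', ha', h3⟩ := S.grow_step hgood ha h2 (by omega)
      exact ih a' ha' (by omega) (by omega)

end PS

end Cfsg.Agent.Lib.Classical.Decomp.Ev
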