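/-
Anisotropic planes: a vector of `R` with five nonzero components and a zero component, from any vector of `R` in no member.
-/
import Mathlib
import Cfsg.Agent.Lib.Classical.Decomp.Ev.PlaneB

set_option autoImplicit false
set_option linter.unusedSectionVars false
set_option linter.unusedSimpArgs false
set_option linter.unusedVariables false

namespace Cfsg.Agent.Lib.Classical.Decomp.Ev

open Matrix QuadraticMap Module Cfsg.Geo
open Cfsg.Agent.Lib.Classical.Decomp
open Cfsg.Agent.Lib.Classical.Orth.Basic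
open Cfsg.Agent.Lib.Classical.Orth.Spinor

variable {ι : Type} [Fintype ι] [DecidableEq ι] {F : Type*} [Field F] [Fintype F]
variable {Q : QuadraticForm F (ι → F)}

set_option quotPrecheck false in
local notation "𝔣" => polar (⇑Q)
set_option quotPrecheck false in
local notation "𝕀" => ↥(Cfsg.isometryGroup F (⇑Q))

variable {t : ℕ} {D : Fin t → Submodule F (ι → F)} {π : Fin t → (ι → F) →ₗ[F] (ι → F)}
variable {R : Set (ι → F)} {c : F}

/-- The plus sign of a reflection. -/
noncomputable def e₁ (s : F) : ℤˣ := @ite _ (IsSquare s) (Classical.propDecidable _) (-1) 1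
/-- The spinor sign of a reflection. -/
noncomputable def e₂ (s : F) : ℤˣ := @ite _ (IsSquare s) (Classical.propDecidable _) 1 (-1)

theorem e_mul (h2 : (2 : F) ≠ 0) {a b : F} (ha : a ≠ 0) (hb : b ≠ 0) :
    e₁ a * e₁ b = eps (a * b) ∧ e₂ a * e₂ b = eps (a * b) := by
  have h := isSquare_mul_iff h2 ha hb
  unfold e₁ e₂
  by_cases h1 : IsSquare a <;> by_cases h3 : IsSquare b
  · rw [if_pos h1, if_pos h3, if_pos h1, if_pos h3, eps_of_sq (h.2 (by tauto))]
    decide
  · rw [if_pos h1, if_neg h3, if_pos h1, if_neg h3, eps_of_not_sq (fun h5 => h3 ((h.1 h5).1 h1))]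
    decide
  · rw [if_neg h1, if_pos h3, if_neg h1, if_pos h3, eps_of_not_sq (fun h5 => h1 ((h.1 h5).2 h3))]
    decide
  · rw [if_neg h1, if_neg h3, if_neg h1, if_neg h3, eps_of_sq (h.2 (by tauto))]
    decide

namespace PS

variable (S : PS Q D π R c)
include S

/-- A sum of moves with the signs. -/
theorem sum_move (h2 : (2 : F) ≠ 0) {m : ℕ} (l : Fin m → Fin t) (hl : Function.Injective l) (y : Fin m → ι → F)
    (hy : ∀ j, y j ∈ D (l j)) (hy0 : ∀ j, Q (y j) ≠ 0) {a : ι → F}
    (hsum : ∀ j, Q (π (l j) a + y j) = Q (π (l j) a)) (J : Finset (Fin m)) :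
    ∃ g : 𝕀, (g : GL ι F) ∈ decompositionStabilizer D ∧ act g a = a + ∑ j ∈ J, y j ∧
      plusSign Q g = ∏ j ∈ J, e₁ (Q (y j)) ∧ spinorSign Q h2 g = ∏ j ∈ J, e₂ (Q (y j)) := by
  classical
  induction J using Finset.induction_on with
  | empty =>
    exact ⟨1, (decompositionStabilizer D).one_mem, by simp [act_one], by simp, by simp⟩
  | insert j J hj ih =>
    obtain ⟨g, hg, h1, h3, h4⟩ := ih
    refine ⟨reflectionIso Q (y j) (hy0 j) * g, (decompositionStabilizer D).mul_mem (refl_stab S.dec (hy j) (hy0 j)) hg,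
      ?_, ?_, ?_⟩
    · rw [act_mul, h1, reflectionIso_act, S.dec.polar_comp (hy j)]
      have hcomp : π (l j) (a + ∑ i ∈ J, y i) = π (l j) a := by
        rw [map_add, map_sum, Finset.sum_eq_zero, add_zero]
        intro i hi
        refine S.dec.zero _ _ _ ?_ (hy i)
        intro h
        have := hl h
        subst this
        exact hj hi
      rw [hcomp]
      have h5 : 𝔣 (y j) (π (l j) a) = -Q (y j) := by
        have h6 := hsum j
        rw [polar_comm]
        simp only [polar]
        rw [h6]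
        ring
      rw [h5, mul_neg, inv_mul_cancel₀ (hy0 j), neg_smul, one_smul, sub_neg_eq_add, Finset.sum_insert hj]
      abel
    · rw [map_mul, h3, Finset.prod_insert hj, plusSign_reflection Q h2]
      congr 1
      unfold e₁
      by_cases h : IsSquare (Q (y j))
      · rw [if_pos h, if_pos h]
      · rw [if_neg h, if_neg h]
    · rw [map_mul, h4, Finset.prod_insert hj, spinorSign_reflection Q h2]
      congr 1
      unfold e₂
      by_cases h : IsSquare (Q (y j))
      · rw [if_pos h, if_pos h]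
      · rw [if_neg h, if_neg h]

/-- The sign trick: from full support to exactly six components. -/
theorem sign_trick (h2 : (2 : F) ≠ 0)
    (hodd : Fintype.card F + 1 ≤ 2 * (@Finset.filter F (Th Q D) (Classical.decPred _) Finset.univ).card)
    {a : ι → F} (ha : a ∈ R) (hfull : ∀ l, π l a ≠ 0) : ∃ y ∈ R, 5 ≤ (supp π y).card ∧ Cor π y := by
  classical
  have ht := S.ht
  have hP0 : ∀ θ, Th Q D θ → θ ≠ 0 := fun θ h => h.1
  have hsum := fun (A B : F) (hA : A ≠ 0) (hB : B ≠ 0) (x : F) => half_exists_sum hP0 hodd hA hB x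
  have hcl := half_classes hP0 hodd h2
  let l : Fin 6 → Fin t := Fin.castLE (by omega)
  have hl : Function.Injective l := Fin.castLE_injective _
  let A : Fin 6 → F := fun j => Q (π (l j) a)
  have hA : ∀ j, A j ≠ 0 := fun j => S.haniso _ _ (S.dec.mem _ a) (hfull _)
  obtain ⟨s₁, s₂, s₃, s₄, s₅, s₆, h₁, h₂, h₃, h₄, h₅, h₆, hSum, hε⟩ :=
    sign_select h2 hP0 hsum hcl (hA 0) (hA 1) (hA 2) (hA 3) (hA 4) (hA 5) c
  let s : Fin 6 → F := ![s₁, s₂, s₃, s₄, s₅, s₆]
  have hth : ∀ j, Th Q D (s j / A j) := by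
    intro j
    fin_cases j
    · exact h₁
    · exact h₂
    · exact h₃
    · exact h₄
    · exact h₅
    · exact h₆
  have hs0 : ∀ j, s j ≠ 0 := fun j h => (hth j).1 (by rw [h, zero_div])
  have hex : ∀ j, ∃ y ∈ D (l j), Q y = s j ∧ Q (π (l j) a + y) = Q (π (l j) a) := by
    intro j
    obtain ⟨y, hy, h1, h3⟩ := (hth j).2 (l j) _ (S.dec.mem _ a) (hA j)
    refine ⟨y, hy, ?_, h3⟩
    rw [h1]
    change A j * (s j / A j) = s j
    field_simp [hA j]
  choose y hy hQy hsumy using hex
  have hy0 : ∀ j, Q (y j) ≠ 0 := fun j => by rw [hQy]; exact hs0 j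
  obtain ⟨g, hg, hact, hp, hsp⟩ := S.sum_move h2 l hl y hy hy0 hsumy Finset.univ
  have hpair : ∀ i j : Fin 6, e₁ (Q (y i)) * e₁ (Q (y j)) = eps (s i * s j) ∧
      e₂ (Q (y i)) * e₂ (Q (y j)) = eps (s i * s j) := by
    intro i j
    rw [hQy, hQy]
    exact e_mul h2 (hs0 i) (hs0 j)
  have hε' : eps (s 0 * s 1) * eps (s 2 * s 3) * eps (s 4 * s 5) = 1 := hε
  have hΩ : g ∈ Cfsg.Omega F (⇑Q) := by
    rw [mem_omega_iff Q S.hQ h2]
    constructor
    · rw [hp, Fin.prod_univ_six, ← hε', ← (hpair 0 1).1, ← (hpair 2 3).1, ← (hpair 4 5).1]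
      simp only [mul_assoc]
    · rw [hsp, Fin.prod_univ_six, ← hε', ← (hpair 0 1).2, ← (hpair 2 3).2, ← (hpair 4 5).2]
      simp only [mul_assoc]
  have hb := S.hinv g hΩ hg a ha
  set z := ∑ j, y j with hz
  rw [hact] at hb
  have hπz : ∀ j, π (l j) z = y j := by
    intro j
    rw [hz, map_sum, Finset.sum_eq_single j]
    · exact S.dec.idem _ _ (hy j)
    · intro i _ hi
      exact S.dec.zero _ _ _ (fun h => hi (hl h).symm) (hy i)
    · simp
  have hQa : Q a = c := S.norm a ha
  have hQa0 : Q a ≠ 0 := S.toSys.ne_zero_of_mem ha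
  have hpol : 𝔣 a z = -c := by
    have h1 : ∀ j, 𝔣 a (y j) = -s j := by
      intro j
      rw [S.dec.polar_comp' (hy j) a]
      have h3 := hsumy j
      have h4 := hQy j
      simp only [polar] at *
      rw [h3, h4]
      ring
    have h3 : 𝔣 a z = ∑ j, 𝔣 a (y j) := by
      have := map_sum (polarBilin Q a) y Finset.univ
      simpa only [polarBilin_apply_apply] using this
    rw [h3, Finset.sum_congr rfl (fun j _ => h1 j), Finset.sum_neg_distrib, Fin.sum_univ_six]
    have : s 0 + s 1 + s 2 + s 3 + s 4 + s 5 = c := by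
      rw [← hSum]
      change s₁ + s₂ + s₃ + s₄ + s₅ + s₆ = _
      ring
    rw [this]
  have hres := S.refl a ha _ hb hQa0
  have e : act (reflectionIso Q a hQa0) (a + z) = z := by
    rw [reflectionIso_act, polar_add_right, polar_self_eq, hpol, hQa]
    have : c⁻¹ * (2 * c + -c) = 1 := by
      have := S.hc
      field_simp
      ring
    rw [this, one_smul, add_sub_cancel_left]
  rw [e] at hres
  refine ⟨z, hres, ?_, ?_⟩
  · have hsub : (Finset.univ : Finset (Fin 6)).image l ⊆ supp π z := by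
      intro m hm
      obtain ⟨j, -, rfl⟩ := Finset.mem_image.1 hm
      rw [mem_supp, hπz]
      intro h
      apply hy0 j
      rw [h, QuadraticMap.map_zero]
    have := Finset.card_le_card hsub
    rw [Finset.card_image_of_injective _ hl, Finset.card_univ, Fintype.card_fin] at this
    omega
  · refine Or.inr ⟨⟨6, by omega⟩, ?_⟩
    rw [hz, map_sum]
    refine Finset.sum_eq_zero (fun j _ => S.dec.zero _ _ _ ?_ (hy j))
    intro h
    have := congrArg Fin.val h
    simp only [l, Fin.val_castLE] at this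
    have hj := j.2
    omega

/-- A seed. -/
theorem seed (hgood : ∃ θ, Th Q D θ ∧ (2 - θ) * (4 - θ) ≠ 0)
    (hodd : (2 : F) ≠ 0 → Fintype.card F + 1 ≤ 2 * (@Finset.filter F (Th Q D) (Classical.decPred _) Finset.univ).card)
    {a : ι → F} (ha : a ∈ R) (hno : ∀ i, a ∉ D i) : ∃ y ∈ R, 5 ≤ (supp π y).card ∧ Cor π y := by
  classical
  have ha0 : a ≠ 0 := by
    rintro rfl
    exact S.toSys.ne_zero_of_mem ha (QuadraticMap.map_zero _)
  obtain ⟨i, j, hij, hi, hj⟩ := S.dec.exists_two_comps ha0 hno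
  have h2c : 2 ≤ (supp π a).card := by
    have : 1 < (supp π a).card := Finset.one_lt_card.2 ⟨i, mem_supp.2 hi, j, mem_supp.2 hj, hij⟩
    omega
  obtain ⟨a', ha', h5⟩ := S.grow hgood 5 a ha h2c (by omega)
  by_cases h2 : (2 : F) = 0
  · exact ⟨a', ha', h5, Or.inl h2⟩
  · by_cases hz : ∃ j, π j a' = 0
    · exact ⟨a', ha', h5, Or.inr hz⟩
    · push Not at hz
      exact S.sign_trick h2 (hodd h2) ha' hz

end PS

end Cfsg.Agent.Lib.Classical.Decomp.Ev
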