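/-
Characteristic two: hyperbolic pairs in non-degenerate subspaces, vectors with prescribed norm and inner product.
-/
import Mathlib
import Cfsg.Agent.Lib.Classical.Decomp.Ev.Plane
import Cfsg.Agent.Lib.Classical.Decomp.Ev.Fin

set_option autoImplicit false
set_option linter.unusedSectionVars false
set_option linter.unusedSimpArgs false
set_option linter.unusedVariables false

namespace Cfsg.Agent.Lib.Classical.Decomp.Ev

open Matrix QuadraticMap Module Cfsg.Geo
open Cfsg.Agent.Lib.Classical.Decomp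
open Cfsg.Agent.Lib.Classical.Orth.Basic

variable {ι : Type} [Fintype ι] [DecidableEq ι] {F : Type*} [Field F] [Fintype F]
variable {Q : QuadraticForm F (ι → F)}

set_option quotPrecheck false in
local notation "𝔣" => polar (⇑Q)

omit [Fintype F] in
theorem finrank_perp_of_ne {E : Submodule F (ι → F)} {a z : ι → F} (hz : z ∈ E) (h : 𝔣 a z ≠ 0) :
    finrank F (perpIn Q E a) + 1 = finrank F E := by
  set φ : E →ₗ[F] F := (polarBilin Q a).comp E.subtype with hφ
  have hφa : φ ⟨z, hz⟩ ≠ 0 := h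
  have hr : finrank F (LinearMap.range φ) = 1 := by
    have : LinearMap.range φ = ⊤ := by
      rw [LinearMap.range_eq_top]
      intro y
      refine ⟨(y * (φ ⟨z, hz⟩)⁻¹) • ⟨z, hz⟩, ?_⟩
      rw [map_smul, smul_eq_mul, mul_assoc, inv_mul_cancel₀ hφa, mul_one]
    rw [this, finrank_top, finrank_self]
  have hker := LinearMap.finrank_range_add_finrank_ker φ
  have hk : finrank F (perpIn Q E a) = finrank F (LinearMap.ker φ) := by
    have : LinearMap.ker φ = (perpIn Q E a).comap E.subtype := by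
      ext x
      simp [hφ, mem_perpIn, LinearMap.mem_ker]
    rw [this]
    have hle : perpIn Q E a ≤ E := inf_le_left
    rw [← Submodule.finrank_map_subtype_eq, Submodule.map_comap_subtype, inf_eq_right.2 hle]
  omega

omit [Fintype F] in
theorem finrank_perp_ge (E : Submodule F (ι → F)) (a : ι → F) : finrank F E ≤ finrank F (perpIn Q E a) + 1 := by
  by_cases h : ∃ z ∈ E, 𝔣 a z ≠ 0
  · obtain ⟨z, hz, h1⟩ := h
    rw [finrank_perp_of_ne hz h1]
  · push Not at h
    have : perpIn Q E a = E := by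
      ext x
      rw [mem_perpIn]
      exact ⟨fun h1 => h1.1, fun h1 => ⟨h1, h x h1⟩⟩
    rw [this]
    omega

section Two

variable (h2 : (2 : F) = 0)
include h2

omit [Fintype F] in
theorem polar_self_two (x : ι → F) : 𝔣 x x = 0 := by
  rw [polar_self_eq, h2, zero_mul]

omit [Fintype F] in
/-- The perp of a hyperbolic pair is nondegenerate. -/
theorem nondeg_perp2 {E : Submodule F (ι → F)} (hE : IsNondegenerateOn (polar (⇑Q)) E) {x p : ι → F} (hx : x ∈ E)
    (hp : p ∈ E) (h : 𝔣 x p ≠ 0) : IsNondegenerateOn (polar (⇑Q)) (perpIn Q (perpIn Q E x) p) := by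
  have key : ∀ w ∈ perpIn Q (perpIn Q E x) p, w ≠ 0 → ∃ y ∈ perpIn Q (perpIn Q E x) p, 𝔣 w y ≠ 0 := by
    intro w hw hw0
    obtain ⟨hw1, hwp⟩ := mem_perpIn.1 hw
    obtain ⟨hwE, hwx⟩ := mem_perpIn.1 hw1
    obtain ⟨-, y, hy, hwy⟩ := hE w hwE hw0
    have hpx : 𝔣 p x ≠ 0 := by rwa [polar_comm]
    refine ⟨y - ((𝔣 p y) * (𝔣 p x)⁻¹) • x - ((𝔣 x y) * (𝔣 x p)⁻¹) • p, ?_, ?_⟩
    · refine mem_perpIn.2 ⟨mem_perpIn.2 ⟨E.sub_mem (E.sub_mem hy (E.smul_mem _ hx)) (E.smul_mem _ hp), ?_⟩, ?_⟩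
      · rw [polar_sub_right, polar_sub_right, polar_smul_right', polar_smul_right', polar_self_two h2, mul_zero, sub_zero,
          mul_assoc, inv_mul_cancel₀ h, mul_one, sub_self]
      · rw [polar_sub_right, polar_sub_right, polar_smul_right', polar_smul_right', polar_self_two h2, mul_zero, sub_zero,
          mul_assoc, inv_mul_cancel₀ hpx, mul_one, sub_self]
    · rw [polar_sub_right, polar_sub_right, polar_smul_right', polar_smul_right', polar_comm (⇑Q) w x, hwx,
        polar_comm (⇑Q) w p, hwp, mul_zero, mul_zero, sub_zero, sub_zero]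
      exact hwy
  intro w hw hw0
  obtain ⟨x', hx', hwx'⟩ := key w hw hw0
  exact ⟨⟨x', hx', by rw [polar_comm]; exact hwx'⟩, ⟨x', hx', hwx'⟩⟩

omit [Fintype F] in
theorem finrank_perp2 {E : Submodule F (ι → F)} {x p : ι → F} (hx : x ∈ E) (hp : p ∈ E) (h : 𝔣 x p ≠ 0) :
    finrank F (perpIn Q (perpIn Q E x) p) + 2 = finrank F E := by
  have h1 := finrank_perp_of_ne (Q := Q) hp h
  have hxm : x ∈ perpIn Q E x := mem_perpIn.2 ⟨hx, polar_self_two h2 x⟩
  have h3 := finrank_perp_of_ne (Q := Q) (E := perpIn Q E x) (a := p) hxm (by rwa [polar_comm])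
  omega

/-- A nonzero vector and a nonzero inner product. -/
theorem exists_norm_pair₂ {E : Submodule F (ι → F)} (hE : IsNondegenerateOn (polar (⇑Q)) E) (hdim : 4 ≤ finrank F E)
    {x : ι → F} (hx : x ∈ E) (hx0 : x ≠ 0) {e : F} (he : e ≠ 0) (s : F) : ∃ u ∈ E, 𝔣 x u = e ∧ Q u = s := by
  obtain ⟨-, y, hy, hxy⟩ := hE x hx hx0
  set p := (e * (𝔣 x y)⁻¹) • y with hp
  have hpE : p ∈ E := E.smul_mem _ hy
  have hxp : 𝔣 x p = e := by
    rw [hp, polar_smul_right', mul_assoc, inv_mul_cancel₀ hxy, mul_one]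
  have hne : 𝔣 x p ≠ 0 := by rwa [hxp]
  have hE' := nondeg_perp2 h2 hE hx hpE hne
  have hd := finrank_perp2 h2 hx hpE hne
  obtain ⟨w, hw, hQw⟩ := univ_all hE' (by omega) (s - Q p)
  obtain ⟨hw1, hpw⟩ := mem_perpIn.1 hw
  obtain ⟨hwE, hxw⟩ := mem_perpIn.1 hw1
  refine ⟨p + w, E.add_mem hpE hwE, ?_, ?_⟩
  · rw [polar_add_right, hxp, hxw, add_zero]
  · rw [Q_add_of_perp hpw, hQw]
    ring

/-- A nonzero vector has orthogonal vectors of any norm. -/
theorem exists_perp_norm₂ {E : Submodule F (ι → F)} (hE : IsNondegenerateOn (polar (⇑Q)) E) (hdim : 4 ≤ finrank F E)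
    {x : ι → F} (hx : x ∈ E) (hx0 : x ≠ 0) (s : F) : ∃ u ∈ E, 𝔣 x u = 0 ∧ Q u = s := by
  obtain ⟨-, y, hy, hxy⟩ := hE x hx hx0
  have hE' := nondeg_perp2 h2 hE hx hy hxy
  have hd := finrank_perp2 h2 hx hy hxy
  obtain ⟨w, hw, hQw⟩ := univ_all hE' (by omega) s
  obtain ⟨hw1, hpw⟩ := mem_perpIn.1 hw
  obtain ⟨hwE, hxw⟩ := mem_perpIn.1 hw1
  exact ⟨w, hwE, hxw, hQw⟩

/-- The key lemma: two independent orthogonal nonsingular vectors have a common non-orthogonal nonsingular vector, unless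
the subspace is of plus type of dimension four. -/
theorem exists_common {E : Submodule F (ι → F)} (hE : IsNondegenerateOn (polar (⇑Q)) E) (hdim : 4 ≤ finrank F E)
    (hplus : ¬ IsPlusTypeOn (⇑Q) E) {a y : ι → F} (ha : a ∈ E) (hy : y ∈ E) (ha0 : Q a ≠ 0) (hy0 : Q y ≠ 0)
    (hind : ∀ l : F, y ≠ l • a) (hay : 𝔣 a y = 0) : ∃ z ∈ E, Q z ≠ 0 ∧ 𝔣 a z ≠ 0 ∧ 𝔣 y z ≠ 0 := by
  classical
  have hind' : ∀ l : F, a ≠ l • y := by
    intro l h
    have hl : l ≠ 0 := by
      rintro rfl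
      apply ha0
      rw [h, zero_smul, QuadraticMap.map_zero]
    apply hind l⁻¹
    rw [h, smul_smul, inv_mul_cancel₀ hl, one_smul]
  obtain ⟨v₁, hv₁, h₁₁, h₁₂⟩ := exists_sep hE ha hy hind' 1
  obtain ⟨v₂, hv₂, h₂₁, h₂₂⟩ := exists_sep hE hy ha hind 1
  set z₀ := v₁ + v₂ with hz₀
  have hz₀E : z₀ ∈ E := E.add_mem hv₁ hv₂
  have hfa : 𝔣 a z₀ = 1 := by
    rw [hz₀, polar_add_right, h₁₂, h₂₁, add_zero]
  have hfy : 𝔣 y z₀ = 1 := by
    rw [hz₀, polar_add_right, h₁₁, h₂₂, zero_add]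
  by_contra hcon
  push Not at hcon
  -- all vectors of the affine space are singular
  have hT : ∀ w ∈ E, 𝔣 a w = 0 → 𝔣 y w = 0 → Q (z₀ + w) = 0 := by
    intro w hw h3 h4
    apply by_contra
    intro h5
    have h6 := hcon (z₀ + w) (E.add_mem hz₀E hw) h5 (by rw [polar_add_right, hfa, h3, add_zero]; exact one_ne_zero)
    rw [polar_add_right, hfy, h4, add_zero] at h6
    exact one_ne_zero h6
  have hQz₀ : Q z₀ = 0 := by
    have := hT 0 E.zero_mem (polar_zero_right _ _) (polar_zero_right _ _)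
    rwa [add_zero] at this
  have hQw : ∀ w ∈ E, 𝔣 a w = 0 → 𝔣 y w = 0 → Q w = 𝔣 z₀ w := by
    intro w hw h3 h4
    have h5 := hT w hw h3 h4
    rw [Q_add, hQz₀] at h5
    have h6 : (2 : F) * 𝔣 z₀ w = 0 := by rw [h2, zero_mul]
    linear_combination h5 - h6
  have hsq : ∀ w ∈ E, ∀ w' ∈ E, 𝔣 a w = 0 → 𝔣 y w = 0 → 𝔣 a w' = 0 → 𝔣 y w' = 0 → 𝔣 w w' = 0 := by
    intro w hw w' hw' h3 h4 h5 h6
    have h7 := hQw (w + w') (E.add_mem hw hw') (by rw [polar_add_right, h3, h5, add_zero])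
      (by rw [polar_add_right, h4, h6, add_zero])
    rw [Q_add, hQw w hw h3 h4, hQw w' hw' h5 h6, polar_add_right] at h7
    linear_combination h7
  by_cases h4 : finrank F E = 4
  · apply hplus
    have hQa1 : Q a = 1 := by
      have h5 := hQw a ha (polar_self_two h2 a) (by rw [polar_comm]; exact hay)
      rw [polar_comm, hfa] at h5
      exact h5
    have hQy1 : Q y = 1 := by
      have h5 := hQw y hy hay (polar_self_two h2 y)
      rw [polar_comm, hfy] at h5
      exact h5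
    set τ := a + y with hτ
    have hτE : τ ∈ E := E.add_mem ha hy
    have hQτ : Q τ = 0 := by
      rw [hτ, Q_add_of_perp hay, hQa1, hQy1]
      linear_combination h2
    have hfτ : 𝔣 z₀ τ = 0 := by
      rw [hτ, polar_add_right, polar_comm (⇑Q) z₀ a, polar_comm (⇑Q) z₀ y, hfa, hfy]
      linear_combination h2
    have hτ0 : τ ≠ 0 := by
      intro h
      apply hind (-1)
      rw [neg_one_smul]
      exact (eq_neg_of_add_eq_zero_right h)
    have hfaτ : 𝔣 a τ = 0 := by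
      rw [hτ, polar_add_right, polar_self_two h2, hay, add_zero]
    have hindz : ∀ l : F, z₀ ≠ l • τ := by
      intro l h
      have := hfa
      rw [h, polar_smul_right', hfaτ, mul_zero] at this
      exact zero_ne_one this
    have hli : LinearIndependent F ![τ, z₀] := by
      rw [LinearIndependent.pair_iff]
      intro s r hsr
      by_cases hr : r = 0
      · subst hr
        simp only [zero_smul, add_zero] at hsr
        exact ⟨(smul_eq_zero.1 hsr).resolve_right hτ0, rfl⟩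
      · exfalso
        apply hindz (-(r⁻¹ * s))
        have h1 : z₀ = r⁻¹ • (r • z₀) := by rw [smul_smul, inv_mul_cancel₀ hr, one_smul]
        have h3 : r • z₀ = -(s • τ) := (eq_neg_of_add_eq_zero_right hsr)
        rw [h1, h3, smul_neg, smul_smul, neg_smul]
    have hfin : finrank F (Submodule.span F {τ, z₀}) = 2 := by
      have h9 := finrank_span_eq_card hli
      have e : Set.range ![τ, z₀] = {τ, z₀} := by
        rw [Matrix.range_cons, Matrix.range_cons, Matrix.range_empty]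
        ext x
        simp
        exact or_comm
      rw [e] at h9
      simpa using h9
    refine ⟨Submodule.span F {τ, z₀}, ?_, ?_, ?_⟩
    · rw [Submodule.span_le]
      rintro x (rfl | rfl)
      · exact hτE
      · exact hz₀E
    · intro w hw
      obtain ⟨α, β, rfl⟩ := Submodule.mem_span_pair.1 hw
      rw [Q_add, Q_smul, Q_smul, hQτ, hQz₀, polar_smul_left', polar_smul_right', polar_comm (⇑Q) τ z₀, hfτ]
      ring
    · rw [hfin, h4]
  · -- dimension at least five
    have h5 : 5 ≤ finrank F E := by omega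
    have hfa1 : 𝔣 a v₁ ≠ 0 := by rw [h₁₂]; exact one_ne_zero
    have hE₁ := nondeg_perp2 h2 hE ha hv₁ hfa1
    have hd₁ := finrank_perp2 h2 ha hv₁ hfa1
    have hym : y ∈ perpIn Q (perpIn Q E a) v₁ := by
      refine mem_perpIn.2 ⟨mem_perpIn.2 ⟨hy, hay⟩, ?_⟩
      rw [polar_comm]
      exact h₁₁
    have hy00 : y ≠ 0 := by
      rintro rfl
      exact hy0 (QuadraticMap.map_zero _)
    obtain ⟨-, p', hp', hyp'⟩ := hE₁ y hym hy00
    have hE₂ := nondeg_perp2 h2 hE₁ hym hp' hyp'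
    have hd₂ := finrank_perp2 h2 hym hp' hyp'
    obtain ⟨w, hw, hw0⟩ := exists_nonsing hE₂ (by omega)
    have hwne : w ≠ 0 := by
      rintro rfl
      exact hw0 (QuadraticMap.map_zero _)
    obtain ⟨-, w', hw', hww'⟩ := hE₂ w hw hwne
    have hinfo : ∀ u ∈ perpIn Q (perpIn Q (perpIn Q (perpIn Q E a) v₁) y) p', u ∈ E ∧ 𝔣 a u = 0 ∧ 𝔣 y u = 0 := by
      intro u hu
      obtain ⟨h6, -⟩ := mem_perpIn.1 hu
      obtain ⟨h7, h8⟩ := mem_perpIn.1 h6
      obtain ⟨h9, -⟩ := mem_perpIn.1 h7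
      obtain ⟨h10, h11⟩ := mem_perpIn.1 h9
      exact ⟨h10, h11, h8⟩
    obtain ⟨h6, h7, h8⟩ := hinfo w hw
    obtain ⟨h9, h10, h11⟩ := hinfo w' hw'
    exact hww' (hsq w h6 w' h9 h7 h8 h10 h11)

end Two

end Cfsg.Agent.Lib.Classical.Decomp.Ev
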