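/-
Anisotropic planes: from a seed to all vectors of norm `c`; the spanning property and the rotations.
-/
import Mathlib
import Cfsg.Agent.Lib.Classical.Decomp.Ev.PlaneC
import Cfsg.Agent.Lib.Classical.Decomp.Ev.Two
import Cfsg.Agent.Lib.Classical.Decomp.Ev.OddB

set_option autoImplicit false
set_option linter.unusedSectionVars false
set_option linter.unusedSimpArgs false
set_option linter.unusedVariables false

namespace Cfsg.Agent.Lib.Classical.Decomp.Ev

open Matrix QuadraticMap Module Cfsg.Geo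
open Cfsg.Agent.Lib.Classical.Decomp
open Cfsg.Agent.Lib.Classical.Orth.Basic
open Cfsg.Agent.Lib.Classical.Orth.Spinor

variable {ι : Type} [Fintype ι] [DecidableEq ι] {F : Type*} [Field F] [Fintype F]
variable {Q : QuadraticForm F (ι → F)}

set_option quotPrecheck false in
local notation "𝔣" => polar (⇑Q)
set_option quotPrecheck false in
local notation "𝕀" => ↥(Cfsg.isometryGroup F (⇑Q))

variable {t k : ℕ} {D : Fin t → Submodule F (ι → F)} {π : Fin t → (ι → F) →ₗ[F] (ι → F)}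
variable {R : Set (ι → F)} {c : F}

theorem exists_perm_onto {t : ℕ} (A B : Finset (Fin t)) (hc : A.card = B.card) :
    ∃ σ : Equiv.Perm (Fin t), ∀ m ∈ B, σ.symm m ∈ A := by
  classical
  let e := Finset.equivOfCardEq hc
  refine ⟨e.extendSubtype, fun m hm => ?_⟩
  have h1 : ((e.symm ⟨m, hm⟩ : ↥A) : Fin t) ∈ A := Subtype.property _
  have h3 : e.extendSubtype ((e.symm ⟨m, hm⟩ : ↥A) : Fin t) = m := by
    rw [Equiv.extendSubtype_apply_of_mem e _ h1]
    simp
  rw [← h3, Equiv.symm_apply_apply]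
  exact h1

/-- Nondegeneracy of the sum of two members. -/
theorem nondeg_sup (dec : Dec Q k D π) {i j : Fin t} (hij : i ≠ j) : IsNondegenerateOn (polar (⇑Q)) (D i ⊔ D j) := by
  have key : ∀ w ∈ D i ⊔ D j, w ≠ 0 → ∃ y ∈ D i ⊔ D j, 𝔣 w y ≠ 0 := by
    intro w hw hw0
    obtain ⟨u, hu, v, hv, rfl⟩ := Submodule.mem_sup.1 hw
    by_cases hu0 : u = 0
    · subst hu0
      rw [zero_add] at hw0 ⊢
      obtain ⟨-, y, hy, hvy⟩ := dec.nd j v hv hw0
      exact ⟨y, Submodule.mem_sup_right hy, hvy⟩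
    · obtain ⟨-, y, hy, huy⟩ := dec.nd i u hu hu0
      refine ⟨y, Submodule.mem_sup_left hy, ?_⟩
      rw [polar_add_left, dec.orth j i hij.symm v hv y hy, add_zero]
      exact huy
  intro w hw hw0
  obtain ⟨x', hx', hwx'⟩ := key w hw hw0
  exact ⟨⟨x', hx', by rw [polar_comm]; exact hwx'⟩, ⟨x', hx', hwx'⟩⟩

theorem finrank_sup_members (dec : Dec Q k D π) {i j : Fin t} (hij : i ≠ j) :
    finrank F ↥(D i ⊔ D j) = k + k := by
  have h1 := Submodule.finrank_sup_add_finrank_inf_eq (D i) (D j)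
  have h3 : D i ⊓ D j = ⊥ := by
    rw [eq_bot_iff]
    rintro x ⟨hx, hx'⟩
    exact (Submodule.mem_bot F).2 (dec.eq_zero_of_mem_mem hij hx hx')
  rw [h3, finrank_bot, add_zero, dec.dim, dec.dim] at h1
  exact h1

/-- Vectors of prescribed norm and inner product in dimension at least four. -/
theorem exists_norm_any {E : Submodule F (ι → F)} (hE : IsNondegenerateOn (polar (⇑Q)) E) (hdim : 4 ≤ finrank F E)
    {x : ι → F} (hx : x ∈ E) (hx0 : x ≠ 0) {e : F} (he : e ≠ 0 ∨ (2 : F) ≠ 0) (s : F) :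
    ∃ u ∈ E, 𝔣 x u = e ∧ Q u = s := by
  by_cases h2 : (2 : F) = 0
  · exact exists_norm_pair₂ h2 hE hdim hx hx0 (he.resolve_right (not_not.2 h2)) s
  · by_cases h : e ≠ 0 ∨ Q x ≠ 0
    · exact exists_norm_pair h2 hE (by omega) hx hx0 e s h
    · push Not at h
      obtain ⟨h1, h3⟩ := h
      subst h1
      exact OS.exists_perp_sing h2 hE hdim hx hx0 h3 s

namespace PS

variable (S : PS Q D π R c)
include S

/-- All vectors with at most three nonzero components. -/
theorem three_comps (hcard : Fintype.card F ≤ 2 * (@Finset.filter F (Th Q D) (Classical.decPred _) Finset.univ).card)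
    {a : ι → F} (ha : a ∈ R) (h5 : 5 ≤ (supp π a).card) (hC : Cor π a) {x : ι → F} (hx : Q x = c)
    (h3 : (supp π x).card ≤ 3) : x ∈ R := by
  classical
  have ht := S.ht
  have hP0 : ∀ θ, Th Q D θ → θ ≠ 0 := fun θ h => h.1
  set J := supp π x with hJ
  -- two more indices
  have hJc : 2 ≤ (Jᶜ).card := by
    rw [Finset.card_compl, Fintype.card_fin]
    omega
  obtain ⟨J₂, hJ₂, hJ₂c⟩ := Finset.exists_subset_card_eq hJc
  obtain ⟨j₄, j₅, hne, rfl⟩ := Finset.card_eq_two.1 hJ₂c
  have hj₄ : j₄ ∉ J := Finset.mem_compl.1 (hJ₂ (by simp))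
  have hj₅ : j₅ ∉ J := Finset.mem_compl.1 (hJ₂ (by simp))
  have hx₄ : π j₄ x = 0 := by
    by_contra h
    exact hj₄ (mem_supp.2 h)
  have hx₅ : π j₅ x = 0 := by
    by_contra h
    exact hj₅ (mem_supp.2 h)
  set B := insert j₄ (insert j₅ J) with hB
  have hBc : B.card ≤ 5 := by
    rw [hB]
    have h6 := Finset.card_insert_le j₄ (insert j₅ J)
    have h7 := Finset.card_insert_le j₅ J
    omega
  obtain ⟨A, hA, hAc⟩ := Finset.exists_subset_card_eq (hBc.trans h5)
  obtain ⟨σ, hσ⟩ := exists_perm_onto A B hAc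
  obtain ⟨h₁, hst, hπ⟩ := S.perm_iso σ
  set a₂ := act h₁ a with ha₂
  have hπ' : ∀ m, π m a₂ = act h₁ (π (σ.symm m) a) := by
    intro m
    have := hπ (σ.symm m) a
    rwa [Equiv.apply_symm_apply] at this
  have hnz : ∀ m ∈ B, Q (π m a₂) ≠ 0 := by
    intro m hm
    refine S.haniso m _ (S.dec.mem m _) ?_
    rw [hπ']
    intro h
    have h4 := congrArg (act h₁⁻¹) h
    rw [act_inv_act, act_zero] at h4
    exact (mem_supp.1 (hA (hσ m hm))) h4
  have hQa₂ : Q a₂ ≠ 0 := by
    rw [ha₂, Q_act]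
    exact S.toSys.ne_zero_of_mem ha
  have hCa₂ : Cor π a₂ := by
    rcases hC with h | ⟨j, hj⟩
    · exact Or.inl h
    · refine Or.inr ⟨σ j, ?_⟩
      rw [hπ', Equiv.symm_apply_apply, hj, act_zero]
  have ha₂R : a₂ ∈ R := S.toSys.move h₁ hst ha (S.hasCorr hCa₂ hQa₂)
  -- the intermediate norms on `J`
  have hex : ∀ l, ∃ s₀ : F, (π l x = 0 → s₀ = 0) ∧ (π l x ≠ 0 → s₀ ≠ 0 ∧ Th Q D (s₀ / Q (π l a₂)) ∧ Th Q D (Q (π l x) / s₀)) := by
    intro l
    by_cases hl : π l x = 0
    · exact ⟨0, fun _ => rfl, fun h => absurd hl h⟩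
    · have hlB : l ∈ B := by simp [hB, hJ, mem_supp, hl]
      have hAl := hnz l hlB
      have hQl : Q (π l x) ≠ 0 := S.haniso l _ (S.dec.mem l x) hl
      obtain ⟨θ₁, θ₂, h₁', h₂', hρ⟩ := half_exists_mul hP0 hcard (div_ne_zero hQl hAl)
      have hθ₁ := hP0 _ h₁'
      have hθ₂ := hP0 _ h₂'
      refine ⟨Q (π l a₂) * θ₁, fun h => absurd h hl, fun _ => ⟨mul_ne_zero hAl hθ₁, ?_, ?_⟩⟩
      · rw [mul_div_cancel_left₀ _ hAl]
        exact h₁'
      · have e : Q (π l x) / (Q (π l a₂) * θ₁) = θ₂ := by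
          rw [div_eq_iff (mul_ne_zero hAl hθ₁)]
          rw [eq_div_iff hAl] at hρ
          rw [← hρ]
          ring
        rw [e]
        exact h₂'
  choose s₀ hs₀ hs₀' using hex
  have hA₄ := hnz j₄ (by simp [hB])
  have hA₅ := hnz j₅ (by simp [hB])
  obtain ⟨s₄, s₅, hs₄, hs₅, hsum⟩ := half_exists_sum0 hP0 hcard hA₄ hA₅ (c - ∑ l, s₀ l)
  let s : Fin t → F := fun l => s₀ l + (if l = j₄ then s₄ else 0) + (if l = j₅ then s₅ else 0)
  have hs₄' : s j₄ = s₄ := by
    simp only [s, if_true, if_neg hne, hs₀ j₄ hx₄, zero_add, add_zero]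
  have hs₅' : s j₅ = s₅ := by
    simp only [s, if_true, if_neg hne.symm, hs₀ j₅ hx₅, zero_add]
  have hso : ∀ l, l ≠ j₄ → l ≠ j₅ → s l = s₀ l := by
    intro l h1 h4
    simp only [s, if_neg h1, if_neg h4, add_zero]
  have hex2 : ∀ l, ∃ w ∈ D l, Q w = s l := fun l => univ_all (S.dec.nd l) (S.dim2 l) (s l)
  choose w hw hQw using hex2
  set y := ∑ l, w l with hy
  have hπy : ∀ l, π l y = w l := pi_sum S.dec w hw
  have hQy : Q y = c := by
    rw [S.dec.Q_sum y, Finset.sum_congr rfl (fun l _ => by rw [hπy, hQw])]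
    simp only [s]
    rw [Finset.sum_add_distrib, Finset.sum_add_distrib, Finset.sum_ite_eq', Finset.sum_ite_eq']
    simp only [Finset.mem_univ, if_true]
    rw [add_assoc, hsum]
    ring
  have hw0 : ∀ l, s l = 0 → π l y = 0 := by
    intro l h
    rw [hπy]
    by_contra hne0
    exact S.haniso l _ (hw l) hne0 (by rw [hQw, h])
  have hyR : y ∈ R := by
    refine S.step_down ha₂R hCa₂ hQy (fun l => ?_)
    by_cases h4 : l = j₄
    · subst h4
      rcases hs₄ with h | h
      · exact Or.inl (hw0 _ (by rw [hs₄', h]))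
      · refine Or.inr ⟨hA₄, ?_⟩
        rw [hπy, hQw, hs₄']
        exact h
    by_cases h6 : l = j₅
    · subst h6
      rcases hs₅ with h | h
      · exact Or.inl (hw0 _ (by rw [hs₅', h]))
      · refine Or.inr ⟨hA₅, ?_⟩
        rw [hπy, hQw, hs₅']
        exact h
    by_cases hl : π l x = 0
    · exact Or.inl (hw0 _ (by rw [hso l h4 h6, hs₀ l hl]))
    · have hlB : l ∈ B := by simp [hB, hJ, mem_supp, hl]
      refine Or.inr ⟨hnz l hlB, ?_⟩
      rw [hπy, hQw, hso l h4 h6]
      exact (hs₀' l hl).2.1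
  have hCy : Cor π y := by
    by_cases h2 : (2 : F) = 0
    · exact Or.inl h2
    · right
      obtain ⟨m, hm⟩ : ∃ m, m ∉ B := by
        by_contra hcon
        push Not at hcon
        have h1 : (Finset.univ : Finset (Fin t)) ⊆ B := fun l _ => hcon l
        have h4 := Finset.card_le_card h1
        rw [Finset.card_univ, Fintype.card_fin] at h4
        omega
      have h1 : m ≠ j₄ := fun h => hm (by simp [hB, h])
      have h4 : m ≠ j₅ := fun h => hm (by simp [hB, h])
      have h6 : π m x = 0 := by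
        by_contra h
        exact hm (by simp [hB, hJ, mem_supp, h])
      exact ⟨m, hw0 _ (by rw [hso m h1 h4, hs₀ m h6])⟩
  refine S.step_down hyR hCy hx (fun l => ?_)
  by_cases hl : π l x = 0
  · exact Or.inl hl
  · right
    have h1 : l ≠ j₄ := fun h => hl (by rw [h]; exact hx₄)
    have h4 : l ≠ j₅ := fun h => hl (by rw [h]; exact hx₅)
    rw [hπy, hQw, hso l h1 h4]
    exact ⟨(hs₀' l hl).1, (hs₀' l hl).2.2⟩

/-- All vectors of norm `c`, once those with at most three components are there. -/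
theorem all_of_three (h3all : ∀ x, Q x = c → (supp π x).card ≤ 3 → x ∈ R) (x : ι → F) (hx : Q x = c) : x ∈ R := by
  classical
  have hc := S.hc
  induction hn : (supp π x).card using Nat.strong_induction_on generalizing x with
  | _ n ih =>
    by_cases hle : n ≤ 3
    · exact h3all x hx (by omega)
    have hlt : 2 < (supp π x).card := by omega
    obtain ⟨i₁, i₂, i₃, h₁, h₂, h₃, h12, h13, h23⟩ := Finset.two_lt_card_iff.1 hlt
    have hx₁ := mem_supp.1 h₁
    have hx₂ := mem_supp.1 h₂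
    have hx₃ := mem_supp.1 h₃
    set x₁ := π i₁ x with hx₁d
    have hx₁E : x₁ ∈ D i₁ := S.dec.mem i₁ x
    have hQ₁ : Q x₁ ≠ 0 := S.haniso i₁ _ hx₁E hx₁
    have hE := nondeg_sup S.dec h23
    have hdim : 4 ≤ finrank F ↥(D i₂ ⊔ D i₃) := by rw [finrank_sup_members S.dec h23]
    set x' := π i₂ x + π i₃ x with hx'
    have hx'E : x' ∈ D i₂ ⊔ D i₃ := (D i₂ ⊔ D i₃).add_mem (Submodule.mem_sup_left (S.dec.mem _ x))
      (Submodule.mem_sup_right (S.dec.mem _ x))
    have hx'0 : x' ≠ 0 := by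
      intro h
      apply hx₂
      have h4 := congrArg (π i₂) h
      rw [hx', map_add, S.dec.pi_pi, S.dec.pi_pi_ne h23, add_zero, map_zero] at h4
      exact h4
    have he : c - 2 * Q x₁ ≠ 0 ∨ (2 : F) ≠ 0 := by
      by_cases h2 : (2 : F) = 0
      · left
        rw [h2, zero_mul, sub_zero]
        exact hc
      · exact Or.inr h2
    obtain ⟨b', hb', hf, hQb'⟩ := exists_norm_any hE hdim hx'E hx'0 he (c - Q x₁)
    obtain ⟨b₂, hb₂, b₃, hb₃, rfl⟩ := Submodule.mem_sup.1 hb'
    have hf₁ : ∀ u ∈ D i₂ ⊔ D i₃, 𝔣 x₁ u = 0 := by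
      intro u hu
      obtain ⟨u₂, hu₂, u₃, hu₃, rfl⟩ := Submodule.mem_sup.1 hu
      rw [polar_add_right, S.dec.orth i₁ i₂ h12 _ hx₁E _ hu₂, S.dec.orth i₁ i₃ h13 _ hx₁E _ hu₃, add_zero]
    set b := x₁ + (b₂ + b₃) with hb
    have hQb : Q b = c := by
      rw [hb, Q_add_of_perp (hf₁ _ hb'), hQb']
      ring
    have hπb₁ : π i₁ b = x₁ := by
      rw [hb, map_add, map_add, S.dec.idem _ _ hx₁E, S.dec.zero _ _ _ h12 hb₂, S.dec.zero _ _ _ h13 hb₃, add_zero, add_zero]
    have hπb₂ : π i₂ b = b₂ := by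
      rw [hb, map_add, map_add, S.dec.zero _ _ _ h12.symm hx₁E, S.dec.idem _ _ hb₂, S.dec.zero _ _ _ h23 hb₃, add_zero,
        zero_add]
    have hπb₃ : π i₃ b = b₃ := by
      rw [hb, map_add, map_add, S.dec.zero _ _ _ h13.symm hx₁E, S.dec.zero _ _ _ h23.symm hb₂, S.dec.idem _ _ hb₃, zero_add,
        zero_add]
    have hπb : ∀ l, l ≠ i₁ → l ≠ i₂ → l ≠ i₃ → π l b = 0 := by
      intro l h4 h6 h7
      rw [hb, map_add, map_add, S.dec.zero _ _ _ h4 hx₁E, S.dec.zero _ _ _ h6 hb₂, S.dec.zero _ _ _ h7 hb₃, add_zero, add_zero]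
    have hbR : b ∈ R := by
      refine h3all b hQb ?_
      have hsub : supp π b ⊆ {i₁, i₂, i₃} := by
        intro l hl
        by_contra hcon
        simp only [Finset.mem_insert, Finset.mem_singleton, not_or] at hcon
        exact (mem_supp.1 hl) (hπb l hcon.1 hcon.2.1 hcon.2.2)
      exact (Finset.card_le_card hsub).trans Finset.card_le_three
    have hfbx : 𝔣 b x = c := by
      have h4 : 𝔣 (b₂ + b₃) x = 𝔣 x' (b₂ + b₃) := by
        rw [polar_add_left, S.dec.polar_comp hb₂, S.dec.polar_comp hb₃, hx', polar_add_left, polar_add_right, polar_add_right,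
          S.dec.orth i₂ i₃ h23 _ (S.dec.mem _ x) _ hb₃, S.dec.orth i₃ i₂ h23.symm _ (S.dec.mem _ x) _ hb₂,
          polar_comm (⇑Q) b₂, polar_comm (⇑Q) b₃]
        ring
      rw [hb, polar_add_left, S.dec.polar_comp hx₁E, ← hx₁d, polar_self_eq, h4, hf]
      ring
    have hQz : Q (x - b) = c := by
      rw [Q_sub, hx, hQb, polar_comm, hfbx]
      ring
    have hsupp : (supp π (x - b)).card < n := by
      rw [← hn]
      apply Finset.card_lt_card
      rw [Finset.ssubset_iff_of_subset]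
      · refine ⟨i₁, h₁, ?_⟩
        rw [mem_supp, not_not, map_sub, hπb₁, sub_self]
      · intro l hl
        rw [mem_supp] at hl ⊢
        by_cases h4 : l = i₁
        · rw [h4]
          exact hx₁
        by_cases h6 : l = i₂
        · rw [h6]
          exact hx₂
        by_cases h7 : l = i₃
        · rw [h7]
          exact hx₃
        rw [map_sub, hπb l h4 h6 h7, sub_zero] at hl
        exact hl
    have hz := ih _ hsupp (x - b) hQz rfl
    have hb0 : Q b ≠ 0 := by rw [hQb]; exact hc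
    have hres := S.refl b hbR _ hz hb0
    have e : act (reflectionIso Q b hb0) (x - b) = x := by
      rw [reflectionIso_act, polar_sub_right, hfbx, polar_self_eq, hQb]
      have : c⁻¹ * (c - 2 * c) = -1 := by
        field_simp
        ring
      rw [this, neg_smul, one_smul, sub_neg_eq_add, sub_add_cancel]
    rwa [e] at hres

/-- The closure theorem for planes. -/
theorem closure {a : ι → F} (ha : a ∈ R) (hno : ∀ i, a ∉ D i) : ∀ x, Q x = c → x ∈ R := by
  classical
  have hi₀ : 0 < t := by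
    have := S.ht
    omega
  let i₀ : Fin t := ⟨0, hi₀⟩
  have hP0 : ∀ θ, Th Q D θ → θ ≠ 0 := fun θ h => h.1
  have hcard : Fintype.card F ≤ 2 * (@Finset.filter F (Th Q D) (Classical.decPred _) Finset.univ).card := by
    by_cases h2 : (2 : F) = 0
    · exact card_th_two S.dec S.iso S.haniso h2 i₀
    · have := card_th_odd S.dec S.iso S.haniso h2 i₀
      omega
  have hodd := fun h2 => card_th_odd S.dec S.iso S.haniso h2 i₀
  have hgood := exists_good_ratio hP0 hcard hodd S.hq
  obtain ⟨y, hy, h5, hC⟩ := S.seed hgood hodd ha hno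
  exact S.all_of_three (fun x hx h3 => S.three_comps hcard hy h5 hC hx h3)

end PS

section Facts

variable (dec : Dec Q 2 D π) (iso : ∀ i j, AreIsometricFor (⇑Q) (D i) (D j))
  (haniso : ∀ i x, x ∈ D i → x ≠ 0 → Q x ≠ 0) (hq : Fintype.card F ≠ 3) (i₀ : Fin t)
include dec iso haniso hq i₀

theorem exists_good_th : ∃ θ, Th Q D θ ∧ (2 - θ) * (4 - θ) ≠ 0 := by
  have hP0 : ∀ θ, Th Q D θ → θ ≠ 0 := fun θ h => h.1
  have hcard : Fintype.card F ≤ 2 * (@Finset.filter F (Th Q D) (Classical.decPred _) Finset.univ).card := by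
    by_cases h2 : (2 : F) = 0
    · exact card_th_two dec iso haniso h2 i₀
    · have := card_th_odd dec iso haniso h2 i₀
      omega
  exact exists_good_ratio hP0 hcard (fun h2 => card_th_odd dec iso haniso h2 i₀) hq

/-- The rotations for the last step. -/
theorem plane_rot (j : Fin t) : ∃ u u' : ι → F, u ∈ D j ∧ u' ∈ D j ∧ Q u = Q u' ∧ Q u ≠ 0 ∧
    𝔣 u u' * (4 * Q u ^ 2 - 𝔣 u u' ^ 2) ≠ 0 := by
  obtain ⟨θ, hθ, hg⟩ := exists_good_th dec iso haniso hq i₀
  obtain ⟨u, hu, hQu⟩ := univ_all (dec.nd j) (by rw [dec.dim]) 1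
  have hA : Q u ≠ 0 := by rw [hQu]; exact one_ne_zero
  obtain ⟨y, hy, h1, h3⟩ := hθ.2 j u hu hA
  refine ⟨u, u + y, hu, (D j).add_mem hu hy, h3.symm, hA, ?_⟩
  have hf : 𝔣 u y = -(Q u * θ) := by
    simp only [polar]
    rw [h3, h1]
    ring
  have he : 𝔣 u (u + y) = Q u * (2 - θ) := by
    rw [polar_add_right, polar_self_eq, hf]
    ring
  rw [he]
  have e : Q u * (2 - θ) * (4 * Q u ^ 2 - (Q u * (2 - θ)) ^ 2) = Q u ^ 3 * ((2 - θ) * (4 - θ)) * θ := by ring
  rw [e]
  exact mul_ne_zero (mul_ne_zero (pow_ne_zero _ hA) hg) hθ.1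

/-- The spanning property for planes. -/
theorem plane_span (c : F) (hc : c ≠ 0) : SpanProp Q D c := by
  intro i U horth hcov
  obtain ⟨a, ha, hQa⟩ := univ_all (dec.nd i) (by rw [dec.dim]) c
  have hA : Q a ≠ 0 := by rw [hQa]; exact hc
  obtain ⟨θ, hθ, hg⟩ := exists_good_th dec iso haniso hq i₀
  obtain ⟨y, hy, h1, h3⟩ := hθ.2 i a ha hA
  have hf : 𝔣 a y = -(Q a * θ) := by
    simp only [polar]
    rw [h3, h1]
    ring
  have he : 𝔣 a (a + y) = Q a * (2 - θ) := by
    rw [polar_add_right, polar_self_eq, hf]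
    ring
  have h2θ : 2 - θ ≠ 0 := left_ne_zero_of_mul hg
  have h4θ : 4 - θ ≠ 0 := right_ne_zero_of_mul hg
  have hne : 𝔣 a (a + y) ≠ 0 := by
    rw [he]
    exact mul_ne_zero hA h2θ
  obtain ⟨j, hj⟩ := hcov a ha hQa
  obtain ⟨j', hj'⟩ := hcov (a + y) ((D i).add_mem ha hy) (by rw [h3, hQa])
  have hjj : j = j' := by
    by_contra hne'
    exact hne (horth j j' hne' _ hj _ hj')
  subst hjj
  refine ⟨j, fun x hx => ?_⟩
  have hb0 : a ≠ 0 := by
    rintro rfl
    exact hA (QuadraticMap.map_zero _)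
  have hind : ∀ l : F, a + y ≠ l • a := by
    intro l h
    have h5 : l * l = 1 := by
      have h6 : Q (l • a) = Q a := by rw [← h, h3]
      rw [Q_smul] at h6
      have : Q a * (l * l) = Q a * 1 := by linear_combination h6
      exact mul_left_cancel₀ hA this
    have h7 : 𝔣 a (l • a) = Q a * (2 - θ) := by rw [← h, he]
    rw [polar_smul_right', polar_self_eq] at h7
    have h8 : l * 2 = 2 - θ := by
      have : Q a * (l * 2) = Q a * (2 - θ) := by linear_combination h7
      exact mul_left_cancel₀ hA this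
    apply hθ.1
    have h9 : (l - 1) * (l + 1) = 0 := by linear_combination h5
    rcases mul_eq_zero.1 h9 with h10 | h10
    · have : l = 1 := by linear_combination h10
      rw [this] at h8
      linear_combination h8
    · exfalso
      apply h4θ
      have : l = -1 := by linear_combination h10
      rw [this] at h8
      linear_combination -h8
  obtain ⟨u, v, rfl⟩ := coord (dec.dim i) ha ((D i).add_mem ha hy) hb0 hind x hx
  exact (U j).add_mem ((U j).smul_mem _ hj) ((U j).smul_mem _ hj')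

end Facts

end Cfsg.Agent.Lib.Classical.Decomp.Ev
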