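/-
Maximality of the stabiliser of an orthogonal decomposition into isometric members, in `Ω` of a quadratic form in even dimension.
-/
import Mathlib
import Cfsg.Agent.Lib.Classical.Decomp.Ev.OddB
import Cfsg.Agent.Lib.Classical.Decomp.Ev.TwoClos
import Cfsg.Agent.Lib.Classical.Decomp.Ev.PlaneD
import Cfsg.Agent.Lib.Classical.Decomp.Ev.FinPlane

set_option autoImplicit false
set_option linter.unusedSectionVars false
set_option linter.unusedSimpArgs false
set_option linter.unusedVariables false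

namespace Cfsg.Agent.Lib.Classical.Decomp.Ev

open Matrix QuadraticMap Module Cfsg.Geo
open Cfsg.Agent.Lib.Classical.Decomp
open Cfsg.Agent.Lib.Classical.Orth.Basic
open Cfsg.Agent.Lib.Classical.Orth.Spinor

variable {ι : Type} [Fintype ι] [DecidableEq ι] {F : Type*} [Field F] [Fintype F]
variable {Q : QuadraticForm F (ι → F)}

set_option quotPrecheck false in
local notation "𝔣" => polar (⇑Q)
set_option quotPrecheck false in
local notation "𝕀" => ↥(Cfsg.isometryGroup F (⇑Q))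

variable {t k : ℕ} {D : Fin t → Submodule F (ι → F)} {π : Fin t → (ι → F) →ₗ[F] (ι → F)}
variable {c : F}

theorem span_odd (dec : Dec Q k D π) (h2 : (2 : F) ≠ 0) (hk : 3 ≤ k) (hex : ¬ (Fintype.card F = 3 ∧ k = 3)) (c : F)
    (hc : c ≠ 0) : SpanProp Q D c := by
  intro i U horth hcov
  obtain ⟨a, ha, hQa⟩ := universal h2 (dec.nd i) (by rw [dec.dim]; omega) c
  obtain ⟨j, hj⟩ := hcov a ha hQa
  have hW : ∀ b ∈ D i, Q b = c → 𝔣 a b ≠ 0 → b ∈ U j := by
    intro b hb hQb hab
    obtain ⟨j', hj'⟩ := hcov b hb hQb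
    by_cases hjj : j = j'
    · subst hjj
      exact hj'
    · exact absurd (horth j j' hjj _ hj _ hj') hab
  refine ⟨j, ?_⟩
  by_cases hk3 : k = 3
  · exact le_of_good_three h2 (dec.nd i) (by rw [dec.dim, hk3]) (fun h => hex ⟨h, hk3⟩) ha hc hQa hW
  · exact le_of_good_large h2 (dec.nd i) (by rw [dec.dim]; omega) ha hc hQa hW

theorem span_two (dec : Dec Q k D π) (h2 : (2 : F) = 0) (hk : 4 ≤ k) (hplus : ∀ i, ¬ IsPlusTypeOn (⇑Q) (D i)) (c : F)
    (hc : c ≠ 0) : SpanProp Q D c := by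
  intro i U horth hcov
  have hdim : 4 ≤ finrank F (D i) := by rw [dec.dim]; exact hk
  obtain ⟨a, ha, hQa⟩ := univ_all (dec.nd i) (by omega) c
  have ha0 : Q a ≠ 0 := by rw [hQa]; exact hc
  have hcov' : ∀ b ∈ D i, Q b ≠ 0 → ∃ j, b ∈ U j := by
    intro b hb hb0
    obtain ⟨μ, hμ⟩ := exists_scale h2 hb0 c
    have hμ0 : μ ≠ 0 := by
      rintro rfl
      apply hc
      rw [← hμ, zero_smul, QuadraticMap.map_zero]
    obtain ⟨j, hj⟩ := hcov _ ((D i).smul_mem _ hb) hμ
    exact ⟨j, (Submodule.smul_mem_iff _ hμ0).1 hj⟩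
  obtain ⟨j, hj⟩ := hcov a ha hQa
  have hall : ∀ y ∈ D i, Q y ≠ 0 → y ∈ U j := by
    intro y hy hy0
    obtain ⟨j', hj'⟩ := hcov' y hy hy0
    by_cases hjj : j = j'
    · subst hjj
      exact hj'
    by_cases hind : ∀ l : F, y ≠ l • a
    · obtain ⟨z, hz, hz0, h3, h4⟩ := exists_common h2 (dec.nd i) hdim (hplus i) ha hy ha0 hy0 hind
        (horth j j' hjj _ hj _ hj')
      obtain ⟨j'', hj''⟩ := hcov' z hz hz0
      have h5 : j = j'' := by
        by_contra h6
        exact h3 (horth j j'' h6 _ hj _ hj'')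
      have h6 : j' = j'' := by
        by_contra h7
        exact h4 (horth j' j'' h7 _ hj' _ hj'')
      exact absurd (h5.trans h6.symm) hjj
    · push Not at hind
      obtain ⟨l, hl⟩ := hind
      rw [hl]
      exact (U j).smul_mem _ hj
  refine ⟨j, fun v hv => ?_⟩
  by_cases hv0 : Q v = 0
  · by_cases hv00 : v = 0
    · rw [hv00]
      exact (U j).zero_mem
    obtain ⟨p, hp, h1, h3⟩ := exists_perp_norm₂ h2 (dec.nd i) hdim hv hv00 1
    have hp0 : Q p ≠ 0 := by rw [h3]; exact one_ne_zero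
    have hsum : Q (v + p) ≠ 0 := by
      rw [Q_add_of_perp h1, hv0, h3, zero_add]
      exact one_ne_zero
    have h4 := (U j).sub_mem (hall _ ((D i).add_mem hv hp) hsum) (hall p hp hp0)
    rwa [add_sub_cancel_right] at h4
  · exact hall v hv hv0

/-- The vectors `p, p'` in odd characteristic. -/
theorem pair_odd (dec : Dec Q k D π) (h2 : (2 : F) ≠ 0) (hk : 3 ≤ k) (hex : ¬ (Fintype.card F = 3 ∧ k = 3))
    (y : ι → F) (hy : Q y ≠ 0) : ∃ (i : Fin t) (p p' : ι → F), p ∈ D i ∧ p' ∈ D i ∧ Q p ≠ 0 ∧ Q p = Q p' ∧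
      (∀ l : F, p ≠ l • p') ∧ 𝔣 p y = 0 ∧ 𝔣 p' y = 0 := by
  classical
  obtain ⟨i, hi⟩ : ∃ i, Q (π i y) ≠ 0 := by
    by_contra hcon
    push Not at hcon
    apply hy
    rw [dec.Q_sum y]
    exact Finset.sum_eq_zero (fun i _ => hcon i)
  set b := π i y with hb
  have hbE : b ∈ D i := dec.mem i y
  have hperp : ∀ w, 𝔣 b w = 0 → w ∈ D i → 𝔣 w y = 0 := by
    intro w h hw
    rw [dec.polar_comp hw, polar_comm]
    exact h
  have hE := nondeg_perpIn (dec.nd i) hbE h2 hi
  have hd := finrank_perpIn_add hbE h2 hi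
  rw [dec.dim] at hd
  obtain ⟨p, hp, hp0⟩ := exists_nonsing hE (by omega)
  obtain ⟨hpE, hpb⟩ := mem_perpIn.1 hp
  have hE₂ := nondeg_perpIn hE hp h2 hp0
  have hd₂ := finrank_perpIn_add hp h2 hp0
  by_cases hk3 : k = 3
  · -- dimension three: a reflection of `p`
    obtain ⟨w, hw, hw0⟩ := exists_nonsing hE₂ (by omega)
    obtain ⟨hwW, hpw⟩ := mem_perpIn.1 hw
    obtain ⟨hwE, hbw⟩ := mem_perpIn.1 hwW
    have hcard : Fintype.card F ≠ 3 := fun h => hex ⟨h, hk3⟩
    obtain ⟨l, hl0, hl1, hl2⟩ : ∃ l : F, l ≠ 0 ∧ l ≠ 1 ∧ l ≠ -1 := by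
      by_contra hcon
      push Not at hcon
      have hsub : (Finset.univ : Finset F) ⊆ {0, 1, -1} := by
        intro e _
        by_cases h0 : e = 0
        · simp [h0]
        · by_cases h3 : e = 1
          · simp [h3]
          · have := hcon e h0 h3
            simp [this]
      have hle : Fintype.card F ≤ 3 := by
        have := Finset.card_le_card hsub
        rw [Finset.card_univ] at this
        exact this.trans Finset.card_le_three
      have ho := odd_card_of_two h2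
      have h1 := Fintype.one_lt_card (α := F)
      omega
    have hsq : 1 - l ^ 2 ≠ 0 := by
      intro h
      have : (1 - l) * (1 + l) = 0 := by linear_combination h
      rcases mul_eq_zero.1 this with h3 | h3
      · exact hl1 (by linear_combination -h3)
      · exact hl2 (by linear_combination h3)
    obtain ⟨μ, hμ0, hμ⟩ : ∃ μ : F, μ ≠ 0 ∧ Q p + μ ^ 2 * Q w ≠ 0 := by
      by_cases h1 : Q p + Q w = 0
      · refine ⟨l, hl0, ?_⟩
        have h3 : Q p + l ^ 2 * Q w = Q p * (1 - l ^ 2) := by linear_combination l ^ 2 * h1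
        rw [h3]
        exact mul_ne_zero hp0 hsq
      · exact ⟨1, one_ne_zero, by simpa using h1⟩
    set u := p + μ • w with hu
    have hQu : Q u = Q p + μ ^ 2 * Q w := by
      rw [hu, Q_add_of_perp (by rw [polar_smul_right', hpw, mul_zero]), Q_smul]
      ring
    have hu0 : Q u ≠ 0 := by rw [hQu]; exact hμ
    have hfup : 𝔣 u p = 2 * Q p := by
      rw [hu, polar_add_left, polar_self_eq, polar_smul_left', polar_comm (⇑Q) w p, hpw]
      ring
    set κ := (Q u)⁻¹ * 𝔣 u p with hκ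
    have hκ0 : κ ≠ 0 := by
      rw [hκ, hfup]
      exact mul_ne_zero (inv_ne_zero hu0) (mul_ne_zero h2 hp0)
    set p' := act (reflectionIso Q u hu0) p with hp'
    have hp'e : p' = p - κ • u := by rw [hp', reflectionIso_act]
    have hpE' : p' ∈ D i := by
      rw [hp'e]
      exact (D i).sub_mem hpE ((D i).smul_mem _ ((D i).add_mem hpE ((D i).smul_mem _ hwE)))
    have hbp' : 𝔣 b p' = 0 := by
      rw [hp'e, hu, polar_sub_right, polar_smul_right', polar_add_right, polar_smul_right', hpb, hbw]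
      ring
    refine ⟨i, p, p', hpE, hpE', hp0, ?_, ?_, hperp p hpb hpE, hperp p' hbp' hpE'⟩
    · rw [hp', Q_act]
    · rintro r hr
      have h1 : 𝔣 w p = 0 := by rw [polar_comm]; exact hpw
      have h3 : 𝔣 w p' = -(κ * (μ * (2 * Q w))) := by
        rw [hp'e, hu, polar_sub_right, polar_smul_right', polar_add_right, polar_smul_right', polar_self_eq, h1]
        ring
      have h4 : 𝔣 w p = r * 𝔣 w p' := by
        conv_lhs => rw [hr]
        rw [polar_smul_right']
      rw [h1, h3] at h4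
      have h5 : r * (κ * (μ * (2 * Q w))) = 0 := by linear_combination h4
      have h6 : κ * (μ * (2 * Q w)) ≠ 0 := mul_ne_zero hκ0 (mul_ne_zero hμ0 (mul_ne_zero h2 hw0))
      have h7 : r = 0 := (mul_eq_zero.1 h5).resolve_right h6
      apply hp0
      rw [hr, h7, zero_smul, QuadraticMap.map_zero]
  · -- dimension at least four
    have hk4 : 4 ≤ k := by omega
    obtain ⟨p', hp', hQp'⟩ := universal h2 hE₂ (by omega) (Q p)
    obtain ⟨hp'W, hpp'⟩ := mem_perpIn.1 hp'
    obtain ⟨hp'E, hbp'⟩ := mem_perpIn.1 hp'W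
    refine ⟨i, p, p', hpE, hp'E, hp0, hQp'.symm, ?_, hperp p hpb hpE, hperp p' hbp' hp'E⟩
    rintro r hr
    have h1 : 𝔣 p' p' = 2 * Q p := by rw [polar_self_eq, hQp']
    have h3 : 𝔣 p p' = r * (2 * Q p) := by
      conv_lhs => rw [hr]
      rw [polar_smul_left', h1]
    rw [hpp'] at h3
    have h4 : r = 0 := by
      have := h3.symm
      exact (mul_eq_zero.1 this).resolve_right (mul_ne_zero h2 hp0)
    apply hp0
    rw [hr, h4, zero_smul, QuadraticMap.map_zero]

/-- The vectors `p, p'` in characteristic two. -/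
theorem pair_two (dec : Dec Q k D π) (h2 : (2 : F) = 0) (hk : 4 ≤ k) (y : ι → F) (hy : Q y ≠ 0) :
    ∃ (i : Fin t) (p p' : ι → F), p ∈ D i ∧ p' ∈ D i ∧ Q p ≠ 0 ∧ Q p = Q p' ∧
      (∀ l : F, p ≠ l • p') ∧ 𝔣 p y = 0 ∧ 𝔣 p' y = 0 := by
  classical
  obtain ⟨i, hi⟩ : ∃ i, Q (π i y) ≠ 0 := by
    by_contra hcon
    push Not at hcon
    apply hy
    rw [dec.Q_sum y]
    exact Finset.sum_eq_zero (fun i _ => hcon i)
  set p := π i y with hp
  have hpE : p ∈ D i := dec.mem i y
  have hp00 : p ≠ 0 := by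
    intro h
    apply hi
    rw [h, QuadraticMap.map_zero]
  have hperp : ∀ w, 𝔣 p w = 0 → w ∈ D i → 𝔣 w y = 0 := by
    intro w h hw
    rw [dec.polar_comp hw, polar_comm]
    exact h
  have hd := finrank_perp_ge (Q := Q) (D i) p
  rw [dec.dim] at hd
  obtain ⟨v, hv, hind⟩ := exists_indep (E := perpIn Q (D i) p) (by omega) p
  obtain ⟨hvE, hpv⟩ := mem_perpIn.1 hv
  have hpy : 𝔣 p y = 0 := hperp p (polar_self_two h2 p) hpE
  by_cases hv0 : Q v = 0
  · have hsum : Q (p + v) ≠ 0 := by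
      rw [Q_add_of_perp hpv, hv0, add_zero]
      exact hi
    obtain ⟨μ, hμ⟩ := exists_scale h2 hsum (Q p)
    have hμ0 : μ ≠ 0 := by
      rintro rfl
      apply hi
      rw [← hμ, zero_smul, QuadraticMap.map_zero]
    have hmem : μ • (p + v) ∈ D i := (D i).smul_mem _ ((D i).add_mem hpE hvE)
    refine ⟨i, p, μ • (p + v), hpE, hmem, hi, hμ.symm, ?_, hpy, hperp _ ?_ hmem⟩
    · intro r hr
      rw [smul_smul] at hr
      set s := r * μ with hs
      by_cases hs0 : s = 0
      · rw [hs0, zero_smul] at hr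
        exact hp00 hr
      · apply hind ((1 - s) * s⁻¹)
        have h3 : s • v = (1 - s) • p := by
          rw [sub_smul, one_smul]
          have h8 : s • (p + v) = s • p + s • v := smul_add _ _ _
          rw [← hr] at h8
          calc s • v = (s • p + s • v) - s • p := by abel
            _ = p - s • p := by rw [← h8]
        have h5 : v = s⁻¹ • (s • v) := by rw [smul_smul, inv_mul_cancel₀ hs0, one_smul]
        rw [h5, h3, smul_smul, mul_comm]
    · rw [polar_smul_right', polar_add_right, polar_self_two h2, hpv]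
      ring
  · obtain ⟨μ, hμ⟩ := exists_scale h2 hv0 (Q p)
    have hμ0 : μ ≠ 0 := by
      rintro rfl
      apply hi
      rw [← hμ, zero_smul, QuadraticMap.map_zero]
    have hmem : μ • v ∈ D i := (D i).smul_mem _ hvE
    refine ⟨i, p, μ • v, hpE, hmem, hi, hμ.symm, ?_, hpy, hperp _ ?_ hmem⟩
    · intro r hr
      rw [smul_smul] at hr
      set s := r * μ with hs
      by_cases hs0 : s = 0
      · rw [hs0, zero_smul] at hr
        exact hp00 hr
      · apply hind s⁻¹
        rw [hr, smul_smul, inv_mul_cancel₀ hs0, one_smul]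
    · rw [polar_smul_right', hpv, mul_zero]

/-- Strictness. -/
theorem stab_lt (dec : Dec Q k D π) (hQ : (polarBilin Q).Nondegenerate) (hn : Fintype.card ι ≠ 4) (hk : 2 ≤ k) {a : ι → F}
    {i j : Fin t} (hij : i ≠ j) (hi : π i a ≠ 0) (hj : π j a ≠ 0) (ha : Q a ≠ 0) :
    decompositionStabilizer D ⊓ omegaGL (⇑Q) < omegaGL (⇑Q) := by
  classical
  have hdi : 2 ≤ finrank F (D i) := by rw [dec.dim]; exact hk
  obtain ⟨b, hb, hQb⟩ := univ_all (dec.nd i) hdi (Q a)
  have hb0 : Q b ≠ 0 := by rw [hQb]; exact ha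
  refine SetLike.lt_iff_le_and_exists.2 ⟨inf_le_right, ?_⟩
  refine ⟨_, ⟨reflectionIso Q a ha * reflectionIso Q b hb0, pair_omega hQ hn ha hb0 hQb.symm, rfl⟩, ?_⟩
  rintro ⟨hst, -⟩
  have hbs := refl_stab dec hb hb0
  have hra : ((reflectionIso Q a ha : 𝕀) : GL ι F) ∈ decompositionStabilizer D := by
    have h1 := (decompositionStabilizer D).mul_mem hst hbs
    have e : reflectionIso Q a ha * reflectionIso Q b hb0 * reflectionIso Q b hb0 = reflectionIso Q a ha := by
      rw [mul_assoc, reflectionIso_mul_self, mul_one]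
    have h3 : ((reflectionIso Q a ha * reflectionIso Q b hb0 * reflectionIso Q b hb0 : 𝕀) : GL ι F) ∈
        decompositionStabilizer D := h1
    rwa [e] at h3
  obtain ⟨σ, hσ⟩ := stab_maps hra
  -- a vector of `D i` orthogonal to the component
  let φ : ↥(D i) →ₗ[F] F := (polarBilin Q (π i a)).comp (D i).subtype
  have hlt : finrank F F < finrank F (D i) := by
    rw [Module.finrank_self]
    omega
  have hker := LinearMap.ker_ne_bot_of_finrank_lt hlt (f := φ)
  obtain ⟨⟨x, hx⟩, hxk, hx0⟩ := Submodule.exists_mem_ne_zero_of_ne_bot hker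
  have hxne : x ≠ 0 := fun h => hx0 (Subtype.ext h)
  have hxf : 𝔣 (π i a) x = 0 := hxk
  have hfix : act (reflectionIso Q a ha) x = x := by
    have : 𝔣 a x = 0 := by
      rw [dec.polar_comp' hx a]
      exact hxf
    rw [reflectionIso_act, this, mul_zero, zero_smul, sub_zero]
  have hm1 : act (reflectionIso Q a ha) x ∈ D (σ i) := hσ i x hx
  rw [hfix] at hm1
  have hσi : σ i = i := by
    by_contra hne
    exact hxne (dec.eq_zero_of_mem_mem hne hm1 hx)
  obtain ⟨-, x', hx', hf⟩ := dec.nd i _ (dec.mem i a) hi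
  have hm2 : act (reflectionIso Q a ha) x' ∈ D (σ i) := hσ i x' hx'
  rw [hσi, reflectionIso_act] at hm2
  have hz := dec.zero j i _ hij.symm hm2
  rw [map_sub, map_smul, dec.zero j i _ hij.symm hx', zero_sub, neg_eq_zero] at hz
  have hfa : 𝔣 a x' ≠ 0 := by
    rw [dec.polar_comp' hx' a]
    exact hf
  exact hj ((smul_eq_zero.1 hz).resolve_left (mul_ne_zero (inv_ne_zero ha) hfa))

/-- The generic assembly. -/
theorem maximal_of_parts (dec : Dec Q k D π) (hQ : (polarBilin Q).Nondegenerate) (hn : 5 ≤ Fintype.card ι) (hk : 0 < k)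
    (hspan : ∀ c : F, c ≠ 0 → SpanProp Q D c)
    (hclos : ∀ (R : Set (ι → F)) (c : F), Sys Q k D π R c → ∀ a ∈ R, (∀ i, a ∉ D i) → ∀ x, Q x = c → x ∈ R)
    (hfinal : ∀ M : Subgroup (GL ι F), FS Q k D π M → ∀ m : 𝕀, (m : GL ι F) ∈ M → (m : GL ι F) ∈ decompositionStabilizer D)
    (hstrict : decompositionStabilizer D ⊓ omegaGL (⇑Q) < omegaGL (⇑Q)) :
    IsMaximalIn (omegaGL (⇑Q)) (decompositionStabilizer D ⊓ omegaGL (⇑Q)) := by
  refine ⟨hstrict, fun M hHM hMΩ => ?_⟩
  have hn' : Fintype.card ι ≠ 4 := by omega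
  by_cases hNM : NoMerge Q D M
  · left
    refine le_antisymm ?_ hHM
    intro g hg
    refine ⟨?_, hMΩ hg⟩
    obtain ⟨g', -, rfl⟩ := hMΩ hg
    have S : FS Q k D π M := ⟨dec, hQ, hn', hHM, fun m hm i j x hx h0 hmx =>
      mem_stab_of_noMerge dec hQ hn' hk hHM hNM hspan hm hx h0 hmx⟩
    exact hfinal M S g' hg
  · right
    unfold NoMerge at hNM
    push Not at hNM
    obtain ⟨i, v₀, h0, hv₀, y, hy, hno⟩ := hNM
    have S := sys_Cl dec hQ hn' hv₀ h0 hHM
    exact le_antisymm hMΩ (omega_le_of_all hQ hn h0 hMΩ (hclos _ _ S y hy hno))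

/-- **Maximality of the stabiliser of an orthogonal decomposition.** -/
theorem maximal_even (dec : Dec Q k D π) (hQ : (polarBilin Q).Nondegenerate) (hn : 5 ≤ Fintype.card ι)
    (iso : ∀ i j, AreIsometricFor (⇑Q) (D i) (D j)) (ht : 2 ≤ t)
    (hcase : (k = 2 ∧ 7 ≤ t ∧ (∀ i x, x ∈ D i → x ≠ 0 → Q x ≠ 0) ∧ Fintype.card F ≠ 3) ∨
      ((2 : F) ≠ 0 ∧ 3 ≤ k ∧ ¬ (Fintype.card F = 3 ∧ k = 3)) ∨
      ((2 : F) = 0 ∧ 4 ≤ k ∧ 3 ≤ t ∧ ∀ i, ¬ IsPlusTypeOn (⇑Q) (D i))) :
    IsMaximalIn (omegaGL (⇑Q)) (decompositionStabilizer D ⊓ omegaGL (⇑Q)) := by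
  classical
  have hn' : Fintype.card ι ≠ 4 := by omega
  let i₀ : Fin t := ⟨0, by omega⟩
  let i₁ : Fin t := ⟨1, by omega⟩
  have h01 : i₀ ≠ i₁ := by simp [i₀, i₁, Fin.ext_iff]
  have hk2 : 2 ≤ k := by
    rcases hcase with ⟨h, -⟩ | ⟨-, h, -⟩ | ⟨-, h, -⟩ <;> omega
  have hstrict : decompositionStabilizer D ⊓ omegaGL (⇑Q) < omegaGL (⇑Q) := by
    have hd : ∀ i, 2 ≤ finrank F (D i) := fun i => by rw [dec.dim]; exact hk2
    obtain ⟨u, hu, hQu⟩ := univ_all (dec.nd i₀) (hd _) 1
    obtain ⟨v, hv, hQv⟩ := univ_all (dec.nd i₁) (hd _) 1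
    have hne : ∀ {x : ι → F}, Q x = 1 → x ≠ 0 := by
      rintro x h rfl
      rw [QuadraticMap.map_zero] at h
      exact zero_ne_one h
    have huv : 𝔣 u v = 0 := dec.orth i₀ i₁ h01 _ hu _ hv
    by_cases h2 : (2 : F) = 0
    · -- a third member
      have ht3 : 3 ≤ t := by
        rcases hcase with ⟨-, h, -⟩ | ⟨h, -⟩ | ⟨-, -, h, -⟩
        · omega
        · exact absurd h2 h
        · exact h
      let i₂ : Fin t := ⟨2, by omega⟩
      have h02 : i₀ ≠ i₂ := by simp [i₀, i₂, Fin.ext_iff]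
      have h12 : i₁ ≠ i₂ := by simp [i₁, i₂, Fin.ext_iff]
      obtain ⟨w, hw, hQw⟩ := univ_all (dec.nd i₂) (hd _) 1
      have hπ₀ : π i₀ (u + v + w) = u := by
        rw [map_add, map_add, dec.idem _ _ hu, dec.zero _ _ _ h01 hv, dec.zero _ _ _ h02 hw, add_zero, add_zero]
      have hπ₁ : π i₁ (u + v + w) = v := by
        rw [map_add, map_add, dec.zero _ _ _ h01.symm hu, dec.idem _ _ hv, dec.zero _ _ _ h12 hw, add_zero, zero_add]
      refine stab_lt dec hQ hn' hk2 h01 (by rw [hπ₀]; exact hne hQu) (by rw [hπ₁]; exact hne hQv) ?_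
      rw [Q_add_of_perp, Q_add_of_perp huv, hQu, hQv, hQw]
      · have : (1 : F) + 1 + 1 = 1 := by linear_combination h2
        rw [this]
        exact one_ne_zero
      · rw [polar_add_left, dec.orth i₀ i₂ h02 _ hu _ hw, dec.orth i₁ i₂ h12 _ hv _ hw, add_zero]
    · have hπ₀ : π i₀ (u + v) = u := by
        rw [map_add, dec.idem _ _ hu, dec.zero _ _ _ h01 hv, add_zero]
      have hπ₁ : π i₁ (u + v) = v := by
        rw [map_add, dec.zero _ _ _ h01.symm hu, dec.idem _ _ hv, zero_add]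
      refine stab_lt dec hQ hn' hk2 h01 (by rw [hπ₀]; exact hne hQu) (by rw [hπ₁]; exact hne hQv) ?_
      rw [Q_add_of_perp huv, hQu, hQv]
      have : (1 : F) + 1 = 2 := by norm_num
      rw [this]
      exact h2
  rcases hcase with ⟨hk, h7, haniso, hq⟩ | ⟨h2, h3, hex⟩ | ⟨h2, h4, h3t, hplus⟩
  · subst hk
    refine maximal_of_parts dec hQ hn two_pos (fun c hc => plane_span dec iso haniso hq i₀ c hc) ?_ ?_ hstrict
    · intro R c S a ha hno x hx
      have P : PS Q D π R c := ⟨S, h7, haniso, iso, hn', hq⟩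
      exact P.closure ha hno x hx
    · intro M S m hm
      exact S.final_plane rfl h7 haniso (fun j => plane_rot dec iso haniso hq i₀ j) m hm
  · refine maximal_of_parts dec hQ hn (by omega) (fun c hc => span_odd dec h2 h3 hex c hc) ?_ ?_ hstrict
    · intro R c S a ha hno x hx
      have P : OS Q k D π R c := ⟨S, h2, h3⟩
      exact P.closure iso hex ha hno x hx
    · intro M S m hm
      exact S.final_large h3 (i₀ := i₀) (fun y hy => pair_odd dec h2 h3 hex y hy) m hm
  · refine maximal_of_parts dec hQ hn (by omega) (fun c hc => span_two dec h2 h4 hplus c hc) ?_ ?_ hstrict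
    · intro R c S a ha hno x hx
      have P : TS Q k D π R c := ⟨S, h2, h4, hplus, iso, hn'⟩
      exact P.closure ha hno x hx
    · intro M S m hm
      exact S.final_large (by omega) (i₀ := i₀) (fun y hy => pair_two dec h2 h4 y hy) m hm

end Cfsg.Agent.Lib.Classical.Decomp.Ev
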